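/-
Words in packed matrices inside the stabiliser of a shortest vector.
-/
import Cfsg.Agent.Leech.Co3MultVec
import Cfsg.Agent.Leech.StabOrder
import Cfsg.Agent.SchurCert.Gen

set_option autoImplicit false
set_option maxRecDepth 100000

namespace CfsgLib.Leech.Co2Mult

open Cfsg CfsgLib.Golay MulAction CfsgLib.SchurCert CfsgLib.Leech.Co3Mult
open CfsgLib.M23Coh (wordE)

/-- The fixed vector, packed. -/
def uPk : ℕ := pkV fun t => bif Nat.beq t 23 || Nat.beq t 0 then 4 else 0

theorem uPk_ok : wf uPk = true ∧ (∀ p, Val uPk p = Spor.vecU p) ∧ sqNorm Spor.vecU = 32 := by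
  decide +kernel

/-- The stabiliser of the vector. -/
noncomputable def GU : Subgroup Co0 := stabilizer Co0 Spor.leechU

theorem card_GU : Nat.card GU = 42305421312000 := card_stab32 uPk_ok.2.2

theorem finite_GU : Finite GU := Nat.finite_of_card_ne_zero (by rw [card_GU]; omega)

/-- A matrix pair gives an element fixing the vector. -/
def elOk (M N : List ℕ) : Bool := matOk M N && apOk M uPk && Nat.beq (ap M uPk) uPk

theorem exists_elt {M N : List ℕ} (h : elOk M N = true) :
    ∃ g : GU, ∀ (v : leechLattice) (p : GolayPt), 8 * ((g : Co0) • v).1 p = lin M v.1 p := by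
  simp only [elOk, Bool.and_eq_true, Nat.beq_eq] at h
  obtain ⟨⟨hm, hu⟩, he⟩ := h
  obtain ⟨g, hg⟩ := exists_aut hm
  have hM : wfM M = true := by
    simp only [matOk, Bool.and_eq_true] at hm
    exact hm.1.1.1.1.1.1
  refine ⟨⟨g, mem_stabilizer_iff.2 (Subtype.ext (funext fun p => ?_))⟩, hg⟩
  have h1 := (ap_spec hM uPk_ok.1 hu).2 p
  rw [he, show Val uPk = Spor.leechU.1 from funext uPk_ok.2.1, ← hg] at h1
  omega

open Classical in
/-- The element of a position in the lists. -/
noncomputable def gelC (Ms Ns : List (List ℕ)) (i : ℕ) : GU :=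
  if h : elOk (Ms.getD i []) (Ns.getD i []) = true then (exists_elt h).choose else 1

/-- Apply a word to a packed vector. -/
def run (Ms : List (List ℕ)) : List ℕ → ℕ → ℕ
  | [], x => x
  | i :: r, x => ap (Ms.getD i []) (run Ms r x)

/-- The test for a word applied to a vector. -/
def runOk (Ms : List (List ℕ)) : List ℕ → ℕ → Bool
  | [], x => wf x
  | i :: r, x => runOk Ms r x && Nat.blt i Ms.length && apOk (Ms.getD i []) (run Ms r x)

/-- All matrices give elements. -/
def matsOk (Ms Ns : List (List ℕ)) : Bool :=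
  (List.range Ms.length).all fun i => elOk (Ms.getD i []) (Ns.getD i [])

/-- Both sides of each relation agree on the vectors with one coordinate eight. -/
def relsChk (Ms : List (List ℕ)) (rels : List (List ℕ × List ℕ)) : Bool :=
  rels.all fun r => (List.range 24).all fun j =>
    runOk Ms r.1 (e8 j) && runOk Ms r.2 (e8 j) && Nat.beq (run Ms r.1 (e8 j)) (run Ms r.2 (e8 j))

/-- The words move the vector to distinct images. -/
def nfChk (Ms : List (List ℕ)) (v : ℕ) (nf : List (List ℕ)) : Bool :=
  inLeech (Val v) && nf.all (fun w => runOk Ms w v) && increasing (nf.map fun w => run Ms w v)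

theorem run_spec {Ms Ns : List (List ℕ)} (hm : matsOk Ms Ns = true) {x : ℕ} {v : leechLattice}
    (hv : v.1 = Val x) : ∀ {w : List ℕ}, runOk Ms w x = true →
      wf (run Ms w x) = true ∧ ((wordE (gelC Ms Ns) w : GU).1 • v).1 = Val (run Ms w x)
  | [], h => ⟨h, by
      show (((1 : GU) : Co0) • v).1 = Val x
      rw [OneMemClass.coe_one, one_smul, hv]⟩
  | i :: r, h => by
    simp only [runOk, Bool.and_eq_true, Nat.blt_eq] at h
    obtain ⟨hw, hr⟩ := run_spec hm hv (w := r) h.1.1
    have he := List.all_eq_true.1 hm i (List.mem_range.2 h.1.2)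
    have hM : wfM (Ms.getD i []) = true := by
      have := he
      simp only [elOk, matOk, Bool.and_eq_true] at this
      exact this.1.1.1.1.1.1.1.1
    obtain ⟨hw', hval⟩ := ap_spec hM hw h.2
    refine ⟨hw', funext fun p => ?_⟩
    show ((((gelC Ms Ns i * wordE (gelC Ms Ns) r : GU)) : Co0) • v).1 p = _
    rw [Subgroup.coe_mul, mul_smul]
    have hg : ∀ (u : leechLattice) (p : GolayPt),
        8 * ((gelC Ms Ns i : Co0) • u).1 p = lin (Ms.getD i []) u.1 p := by
      rw [gelC, dif_pos he]
      exact (exists_elt he).choose_spec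
    have h1 := hg ((wordE (gelC Ms Ns) r : GU).1 • v) p
    rw [hr, ← hval] at h1
    show _ = Val (ap (Ms.getD i []) (run Ms r x)) p
    omega

/-- The conditions of a certificate in this model. -/
theorem ok_of {Ms Ns : List (List ℕ)} {c : GCert} {v : ℕ} (hp : c.p.Prime) (hm : matsOk Ms Ns = true)
    (hr : relsChk Ms c.rels = true) (hn : nfChk Ms v c.nf = true) (h2 : c.checkEqs = true)
    (h3 : c.checkSol = true) (h45 : (c.checkShape && c.checkNF) = true)
    (hs : ¬ c.p ∣ 42305421312000 / c.p ^ c.n) : c.Ok (gelC Ms Ns) := by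
  simp only [Bool.and_eq_true] at h45
  simp only [nfChk, Bool.and_eq_true] at hn
  obtain ⟨⟨hv, hok⟩, hinc⟩ := hn
  refine ⟨hp, fun r hr' => ?_, h2, h3, h45.1, h45.2, ?_, by rwa [card_GU]⟩
  · have hh := List.all_eq_true.1 hr r hr'
    refine Subtype.ext (ext_eights fun i => Subtype.ext ?_)
    have hj := List.all_eq_true.1 hh (idx i).val (List.mem_range.2 (idx i).isLt)
    simp only [Bool.and_eq_true, Nat.beq_eq] at hj
    have he : (eight i).1 = Val (e8 (idx i).val) := funext fun p => by
      rw [e8_val]; simp [eight, Pi.single_apply]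
    rw [(run_spec hm he hj.1.1).2, (run_spec hm he hj.1.2).2, hj.2]
  · have hnd := increasing_nodup _ hinc
    refine (List.nodup_map_iff_inj_on (List.Nodup.of_map _ hnd)).2 fun a ha b hb hab => ?_
    refine List.inj_on_of_nodup_map hnd ha hb ?_
    let V : leechLattice := ⟨Val v, inLeech_spec hv⟩
    have ea := run_spec (v := V) hm rfl (List.all_eq_true.1 hok a ha)
    have eb := run_spec (v := V) hm rfl (List.all_eq_true.1 hok b hb)
    exact eq_of_Val ea.1 eb.1 (by rw [← ea.2, ← eb.2, hab])

/-- Sets of packed vectors showing that each generator is outside the span of the later ones. -/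
def witChk (Ms : List (List ℕ)) (n : ℕ) (wit : List (List ℕ)) : Bool :=
  (List.range n).all fun i =>
    ((wit.getD i []).all fun x => inLeech (Val x) && wf x) &&
    ((List.range n).all fun j => Nat.ble j i || (wit.getD i []).all fun x =>
      runOk Ms [j] x && (wit.getD i []).contains (run Ms [j] x)) &&
    (wit.getD i []).any fun x => runOk Ms [i] x && !((wit.getD i []).contains (run Ms [i] x))

theorem wit_big {Ms Ns : List (List ℕ)} (hm : matsOk Ms Ns = true) {n : ℕ} {wit : List (List ℕ)}
    (h : witChk Ms n wit = true) :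
    2 ^ n ≤ Nat.card (Subgroup.closure (gelC Ms Ns '' {s | s < n})) := by
  haveI := finite_GU
  refine two_pow_le_closure (α := leechLattice) (gelC Ms Ns) n fun i hi => ?_
  have hh := List.all_eq_true.1 h i (List.mem_range.2 hi)
  simp only [Bool.and_eq_true, List.all_eq_true, List.any_eq_true, Bool.or_eq_true, List.mem_range,
    Nat.ble_eq, Bool.not_eq_true', List.contains_iff_mem] at hh
  obtain ⟨⟨hin, hkeep⟩, x, hx, hxr, hxn⟩ := hh
  set T := wit.getD i []
  have hrun : ∀ j (u : leechLattice) (y : ℕ), u.1 = Val y → runOk Ms [j] y = true →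
      wf (run Ms [j] y) = true ∧ (gelC Ms Ns j • u).1 = Val (run Ms [j] y) := fun j u y hu hr => by
    obtain ⟨h1, h2⟩ := run_spec (Ns := Ns) hm hu hr
    refine ⟨h1, ?_⟩
    rw [← h2]
    show _ = (((gelC Ms Ns j * 1 : GU) : Co0) • u).1
    rw [mul_one]
    rfl
  refine ⟨{u | ∃ y ∈ T, u.1 = Val y}, fun j hj hjn u hu => ?_, ⟨Val x, inLeech_spec (hin x hx).1⟩,
    ⟨x, hx, rfl⟩, fun hc => ?_⟩
  · obtain ⟨y, hy, e⟩ := hu
    obtain ⟨hyr, hym⟩ := (hkeep j hjn).resolve_left (by omega) y hy
    exact ⟨_, hym, (hrun j u y e hyr).2⟩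
  · obtain ⟨z, hz, e⟩ := hc
    obtain ⟨h1, h2⟩ := hrun i ⟨Val x, inLeech_spec (hin x hx).1⟩ x rfl hxr
    rw [h2] at e
    rw [eq_of_Val h1 (hin z hz).2 e] at hxn
    rw [← List.contains_iff_mem] at hz
    exact absurd hz (by rw [hxn]; decide)

/-- The conditions of a certificate at two in this model. -/
theorem core_of_two {Ms Ns : List (List ℕ)} {c : GCert} (hp : c.p = 2) (hm : matsOk Ms Ns = true)
    (hr : relsChk Ms c.rels = true) {wit : List (List ℕ)} (hw : witChk Ms c.n wit = true)
    (h2 : c.checkEqs = true) {rows : List ℕ} (hrows : rows = c.eqs.map eqMask)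
    (h3 : c.checkSolTwo rows = true) (h4 : c.checkShape = true)
    (hs : ¬ c.p ∣ 42305421312000 / c.p ^ c.n) : c.Core (gelC Ms Ns) := by
  refine ⟨hp ▸ Nat.prime_two, fun r hr' => ?_, h2, GCert.checkSol_of_two hp hrows h3, h4, ?_,
    by rwa [card_GU]⟩
  · have hh := List.all_eq_true.1 hr r hr'
    refine Subtype.ext (ext_eights fun i => Subtype.ext ?_)
    have hj := List.all_eq_true.1 hh (idx i).val (List.mem_range.2 (idx i).isLt)
    simp only [Bool.and_eq_true, Nat.beq_eq] at hj
    have he : (eight i).1 = Val (e8 (idx i).val) := funext fun p => by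
      rw [e8_val]; simp [eight, Pi.single_apply]
    rw [(run_spec hm he hj.1.1).2, (run_spec hm he hj.1.2).2, hj.2]
  · rw [hp]
    exact wit_big hm hw

/-- A list test follows from the tests on consecutive blocks. -/
theorem all_of_blk {α : Type*} (l : List α) (f : α → Bool) (k n : ℕ) (hl : l.length ≤ k * n)
    (h : ∀ b < n, ((l.drop (k * b)).take k).all f = true) : l.all f = true := by
  refine List.all_eq_true.2 fun x hx => ?_
  obtain ⟨i, hi, rfl⟩ := List.mem_iff_getElem.1 hx
  rcases Nat.eq_zero_or_pos k with rfl | hk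
  · omega
  have hb : i / k < n := (Nat.div_lt_iff_lt_mul hk).2 (by rw [mul_comm]; omega)
  refine List.all_eq_true.1 (h _ hb) _ (List.mem_iff_getElem?.2 ⟨i % k, ?_⟩)
  rw [List.getElem?_take_of_lt (Nat.mod_lt _ hk), List.getElem?_drop, Nat.div_add_mod,
    List.getElem?_eq_getElem hi]

end CfsgLib.Leech.Co2Mult
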