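/-
Kernel checks of the certificate at 2 for the second Conway group: derivations.
-/
import Cfsg.Agent.Leech.Co2MultModel
import Cfsg.Agent.Leech.Co2MultData

set_option autoImplicit false
set_option maxRecDepth 100000
set_option Elab.async false

namespace CfsgLib.Leech.Co2Mult

open CfsgLib.SchurCert CfsgLib.Leech.Co3Mult
theorem eqs2_0 : ({ cert2 with eqs := (cert2.eqs.drop (25 * 0)).take 25 } : GCert).checkEqs = true := by decide +kernel
theorem eqs2_1 : ({ cert2 with eqs := (cert2.eqs.drop (25 * 1)).take 25 } : GCert).checkEqs = true := by decide +kernel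
theorem eqs2_2 : ({ cert2 with eqs := (cert2.eqs.drop (25 * 2)).take 25 } : GCert).checkEqs = true := by decide +kernel
theorem eqs2_3 : ({ cert2 with eqs := (cert2.eqs.drop (25 * 3)).take 25 } : GCert).checkEqs = true := by decide +kernel
theorem eqs2_4 : ({ cert2 with eqs := (cert2.eqs.drop (25 * 4)).take 25 } : GCert).checkEqs = true := by decide +kernel
theorem eqs2_5 : ({ cert2 with eqs := (cert2.eqs.drop (25 * 5)).take 25 } : GCert).checkEqs = true := by decide +kernel
theorem eqs2_6 : ({ cert2 with eqs := (cert2.eqs.drop (25 * 6)).take 25 } : GCert).checkEqs = true := by decide +kernel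
theorem eqs2_7 : ({ cert2 with eqs := (cert2.eqs.drop (25 * 7)).take 25 } : GCert).checkEqs = true := by decide +kernel

end CfsgLib.Leech.Co2Mult
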