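/-
Kernel checks of the certificate at 2 for the second Conway group: matrices.
-/
import Cfsg.Agent.Leech.Co2MultModel
import Cfsg.Agent.Leech.Co2MultData

set_option autoImplicit false
set_option maxRecDepth 100000
set_option Elab.async false

namespace CfsgLib.Leech.Co2Mult

open CfsgLib.SchurCert CfsgLib.Leech.Co3Mult
theorem mats2_0 : (((List.range p2Mats.length).drop (6 * 0)).take 6).all (fun i => elOk (p2Mats.getD i []) (p2Inv.getD i [])) = true := by decide +kernel
theorem mats2_1 : (((List.range p2Mats.length).drop (6 * 1)).take 6).all (fun i => elOk (p2Mats.getD i []) (p2Inv.getD i [])) = true := by decide +kernel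
theorem mats2_2 : (((List.range p2Mats.length).drop (6 * 2)).take 6).all (fun i => elOk (p2Mats.getD i []) (p2Inv.getD i [])) = true := by decide +kernel
theorem mats2_3 : (((List.range p2Mats.length).drop (6 * 3)).take 6).all (fun i => elOk (p2Mats.getD i []) (p2Inv.getD i [])) = true := by decide +kernel

theorem mats2_ok : matsOk p2Mats p2Inv = true := by
  refine all_of_blk _ _ 6 4 (by decide +kernel) ?_
  intro b hb
  interval_cases b
  · exact mats2_0
  · exact mats2_1
  · exact mats2_2
  · exact mats2_3

end CfsgLib.Leech.Co2Mult
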