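/-
Kernel checks of the certificate at 2 for the second Conway group: relations.
-/
import Cfsg.Agent.Leech.Co2MultModel
import Cfsg.Agent.Leech.Co2MultData

set_option autoImplicit false
set_option maxRecDepth 100000
set_option Elab.async false

namespace CfsgLib.Leech.Co2Mult

open CfsgLib.SchurCert CfsgLib.Leech.Co3Mult
theorem rels2_6 : relsChk p2Mats ((cert2.rels.drop (20 * 6)).take 20) = true := by decide +kernel
theorem rels2_7 : relsChk p2Mats ((cert2.rels.drop (20 * 7)).take 20) = true := by decide +kernel
theorem rels2_8 : relsChk p2Mats ((cert2.rels.drop (20 * 8)).take 20) = true := by decide +kernel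
theorem rels2_9 : relsChk p2Mats ((cert2.rels.drop (20 * 9)).take 20) = true := by decide +kernel
theorem rels2_10 : relsChk p2Mats ((cert2.rels.drop (20 * 10)).take 20) = true := by decide +kernel
theorem rels2_11 : relsChk p2Mats ((cert2.rels.drop (20 * 11)).take 20) = true := by decide +kernel

end CfsgLib.Leech.Co2Mult
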