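/-
Kernel checks of the certificate at 2 for the second Conway group: assembly.
-/
import Cfsg.Agent.Leech.Co2MultModel
import Cfsg.Agent.Leech.Co2MultChk2Mats
import Cfsg.Agent.Leech.Co2MultChk2RelsA
import Cfsg.Agent.Leech.Co2MultChk2RelsB
import Cfsg.Agent.Leech.Co2MultChk2Eqs

set_option autoImplicit false
set_option maxRecDepth 100000
set_option Elab.async false

namespace CfsgLib.Leech.Co2Mult

open CfsgLib.SchurCert CfsgLib.Leech.Co3Mult

theorem wit2_ok : witChk p2Mats cert2.n p2Wit = true := by decide +kernel
theorem rows2_ok : p2Rows = cert2.eqs.map eqMask := by decide +kernel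
theorem sol2_ok : cert2.checkSolTwo p2Rows = true := by decide +kernel
theorem shape2_ok : cert2.checkShape = true := by decide +kernel
theorem phi2_ok : cert2.phiZero = true := by decide +kernel

theorem rels2_ok : relsChk p2Mats cert2.rels = true := by
  refine all_of_blk _ _ 20 12 (by decide +kernel) ?_
  intro b hb
  interval_cases b
  · exact rels2_0
  · exact rels2_1
  · exact rels2_2
  · exact rels2_3
  · exact rels2_4
  · exact rels2_5
  · exact rels2_6
  · exact rels2_7
  · exact rels2_8
  · exact rels2_9
  · exact rels2_10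
  · exact rels2_11

theorem eqs2_ok : cert2.checkEqs = true := by
  refine all_of_blk _ _ 25 8 (by decide +kernel) ?_
  intro b hb
  interval_cases b
  · exact eqs2_0
  · exact eqs2_1
  · exact eqs2_2
  · exact eqs2_3
  · exact eqs2_4
  · exact eqs2_5
  · exact eqs2_6
  · exact eqs2_7

theorem core2 : cert2.Core (gelC p2Mats p2Inv) :=
  core_of_two rfl mats2_ok rels2_ok wit2_ok eqs2_ok rows2_ok sol2_ok shape2_ok (by norm_num [cert2])

end CfsgLib.Leech.Co2Mult
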