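/-
The multiplier of the second Conway group is trivial.
-/
import Cfsg.Agent.Leech.Co2MultChk2
import Cfsg.Agent.Leech.Co2MultChk3
import Cfsg.Agent.Leech.Co2MultChk5
import Cfsg.Agent.Schur.Basic

set_option autoImplicit false
set_option maxRecDepth 100000

namespace CfsgLib.Leech.Co2Mult

open Cfsg CfsgLib.Schur CfsgLib.SchurCert MulAction CfsgLib.Leech.Co3Mult

universe v

/-- No cover of the stabiliser has its kernel in the commutator subgroup. -/
theorem no_cover_G {Δ : Type v} [Group Δ] [Finite Δ] {τ : Δ →* GU} {e : Δ} {q : ℕ} (hq : q.Prime)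
    (hcov : PrimeCover τ e q) (hst : e ∈ commutator Δ) : False := by
  haveI := finite_GU
  haveI := Fact.mk hq
  by_cases h2 : q = 2
  · subst h2; exact core2.no_cover phi2_ok hcov hst
  by_cases h3 : q = 3
  · subst h3; exact ok3.no_cover phi3_ok hcov hst
  by_cases h5 : q = 5
  · subst h5; exact ok5.no_cover phi5_ok hcov hst
  refine no_cover_of_cyclic (p := q) ?_ hcov hst
  rw [card_GU]
  intro hd
  have hd1 : q ∣ 2 ^ 18 * 3 ^ 6 * 5 ^ 3 * (7 * 11 * 23) := by
    norm_num
    exact (dvd_pow_self q two_ne_zero).trans hd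
  have hne : ∀ r k : ℕ, r.Prime → q ≠ r → ¬ q ∣ r ^ k := fun r k hr hne h =>
    hne ((Nat.prime_dvd_prime_iff_eq hq hr).1 (hq.dvd_of_dvd_pow h))
  have h1771 : q ∣ 7 * 11 * 23 := by
    rcases (Nat.Prime.dvd_mul hq).1 hd1 with h | h
    · rcases (Nat.Prime.dvd_mul hq).1 h with h | h
      · rcases (Nat.Prime.dvd_mul hq).1 h with h | h
        · exact absurd h (hne 2 18 Nat.prime_two h2)
        · exact absurd h (hne 3 6 Nat.prime_three h3)
      · exact absurd h (hne 5 3 Nat.prime_five h5)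
    · exact h
  have hq' : q = 7 ∨ q = 11 ∨ q = 23 := by
    rcases (Nat.Prime.dvd_mul hq).1 h1771 with h | h
    · rcases (Nat.Prime.dvd_mul hq).1 h with h | h
      · exact Or.inl ((Nat.prime_dvd_prime_iff_eq hq (by norm_num)).1 h)
      · exact Or.inr (Or.inl ((Nat.prime_dvd_prime_iff_eq hq (by norm_num)).1 h))
    · exact Or.inr (Or.inr ((Nat.prime_dvd_prime_iff_eq hq (by norm_num)).1 h))
  rcases hq' with rfl | rfl | rfl <;> norm_num at hd

/-- The stabiliser in the automorphism group is the second Conway group. -/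
noncomputable def co2Equiv : ↥Spor.Co2 ≃* GU where
  toFun g := ⟨⟨g.1, (Subgroup.mem_inf.1 g.2).1⟩, mem_stabilizer_iff.2
    (show g.1 Spor.leechU = Spor.leechU from mem_stabilizer_iff.1 (Subgroup.mem_inf.1 g.2).2)⟩
  invFun g := ⟨(g : Co0).1, Subgroup.mem_inf.2 ⟨(g : Co0).2, mem_stabilizer_iff.2
    (show (g : Co0).1 Spor.leechU = Spor.leechU from mem_stabilizer_iff.1 g.2)⟩⟩
  left_inv g := rfl
  right_inv g := rfl
  map_mul' g h := rfl

/-- The multiplier of the second Conway group is trivial. -/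
theorem multiplier_Co2 : Cfsg.HasCyclicSchurMultiplier ↥Spor.Co2 1 := by
  haveI := finite_GU
  haveI : Finite ↥Spor.Co2 := Finite.of_equiv _ co2Equiv.symm.toEquiv
  refine hasTrivial_of fun Γ _ _ σ hσ => ?_
  have hker : (co2Equiv.toMonoidHom.comp σ).ker = σ.ker := by
    ext y
    simp [MonoidHom.mem_ker]
  have hσ' : Cfsg.IsStemExtension (co2Equiv.toMonoidHom.comp σ) :=
    ⟨co2Equiv.surjective.comp hσ.1, hker ▸ hσ.2.1, hker ▸ hσ.2.2⟩
  have := ker_eq_bot_of_no_cover hσ' fun Δ _ _ τ e q hq hc hst => no_cover_G hq hc hst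
  rwa [hker] at this

end CfsgLib.Leech.Co2Mult
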