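/-
The second Conway group: simplicity from the Sylow subgroup of order twenty-three.
-/
import Cfsg.Agent.Leech.McL
import Mathlib.LinearAlgebra.Matrix.GeneralLinearGroup.Card

set_option autoImplicit false

namespace CfsgLib.Leech.Co2

open Cfsg CfsgLib.Golay MulAction
open scoped Pointwise

/-- The list of the frame vector. -/
def threeList : List ℤ := (List.range 24).map fun i => if i = 23 then -3 else 1

theorem threeList_ok : inLeech (vecOf threeList) = true ∧ sqNorm (vecOf threeList) = 32 ∧
    dotInt (vecOf threeList) (vecOf repPair) = -8 ∧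
    (∀ p, vecOf threeList p = if p = none then -3 else 1) ∧ toSet (2 ^ 23) = {(none : GolayPt)} := by
  decide +kernel

/-- The frame vector. -/
def V3 : leechLattice := ⟨_, inLeech_spec threeList_ok.1⟩

theorem V3_val (p : GolayPt) : V3.1 p = if p = none then -3 else 1 := threeList_ok.2.2.2.1 p

theorem norm_V3 : sqNorm V3.1 = 32 := threeList_ok.2.1

/-- The stabiliser of the frame vector. -/
def G : Subgroup Co0 := stabilizer Co0 V3

theorem card_G : Nat.card G = 42305421312000 := card_stab32 norm_V3

theorem finite_G : Finite G := Nat.finite_of_card_ne_zero (by rw [card_G]; omega)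

/-! ### The monomial part -/

/-- The permutations fixing the first point, inside the stabiliser. -/
def permHom : fixGroup [2 ^ 23] →* G :=
  MonoidHom.mk' (fun σ => ⟨perm (Simple.mem_K23.1 σ.2).1, Subtype.ext (funext fun p => by
    rw [McL.perm_apply, V3_val, V3_val]
    have sn : (σ : Equiv.Perm GolayPt).symm p = none ↔ p = none := by
      rw [Equiv.symm_apply_eq, (Simple.mem_K23.1 σ.2).2]
    simp only [sn])⟩)
    fun σ τ => Subtype.ext (McL.perm_mul (Simple.mem_K23.1 σ.2).1 (Simple.mem_K23.1 τ.2).1)

theorem permHom_injective : Function.Injective permHom := fun σ τ h =>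
  Subtype.ext (HS.mono_perm_inj (hc := empty_mem) (hd := empty_mem)
    (congrArg (fun k : G => (k : Co0)) h : perm (Simple.mem_K23.1 σ.2).1 = perm (Simple.mem_K23.1 τ.2).1))

theorem mem_range_permHom {g : G} (h : (g : Co0) • eight none = eight none) : g ∈ permHom.range := by
  obtain ⟨g, hg⟩ := g
  obtain ⟨σ, hσ, c, hc, rfl⟩ := exists_mono
    (mem_crossStab_of_eight (i := none) (by rw [show g • eight none = eight none from h]; exact eight_mem_cross none))
  obtain ⟨hn, hcn⟩ := HS.mono_fix_eight h
  have hc0 : c = ∅ := Finset.eq_empty_of_forall_notMem fun p hp => by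
    have := congrArg (fun v : leechLattice => v.1 p) (show mono hσ hc • V3 = V3 from hg)
    have e : (mono hσ hc • V3).1 p = -V3.1 (σ.symm p) := by
      show signedPerm σ c V3.1 p = _
      simp [signedPerm, hp]
    have hpn : p ≠ none := fun e => hcn (e ▸ hp)
    have hqn : σ.symm p ≠ none := fun e => hpn (by rw [← hn, ← e, Equiv.apply_symm_apply])
    simp only [e, V3_val, if_neg hpn, if_neg hqn] at this
    omega
  refine ⟨⟨σ, Simple.mem_K23.2 ⟨hσ, hn⟩⟩, Subtype.ext ?_⟩
  subst hc0
  rfl

theorem orbit_ok :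
    (∀ k < 23, permOf (Norm.powTab Norm.dataM23 1) (ptN k) = ptN ((k + 1) % 23)) ∧
    (∀ p : GolayPt, p = none ∨ ∃ k < 23, ptN k = p) ∧ ((Finset.univ : Finset GolayPt).erase none).card = 23 ∧
    Norm.dataM23.fs = [2 ^ 23] := by decide +kernel

theorem fixed_eight {c : fixGroup [2 ^ 23]} (hc : (c : Equiv.Perm GolayPt) = permOf (Norm.powTab Norm.dataM23 1))
    {y : leechLattice} (hfix : (permHom c : Co0) • y = y) (hn : sqNorm y.1 = 64)
    (hv : dotInt V3.1 y.1 = -24) : y = eight none := by
  obtain ⟨hs, hp, hc23, -⟩ := orbit_ok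
  have hinv : ∀ p, y.1 (c.1 p) = y.1 p := fun p => by
    have := congrArg (fun v : leechLattice => v.1 (c.1 p)) hfix
    rw [show (permHom c : Co0) = perm (Simple.mem_K23.1 c.2).1 from rfl] at this
    simp only [McL.perm_apply, Equiv.symm_apply_apply] at this
    exact this.symm
  set β := y.1 (ptN 0)
  have hB : ∀ k, k < 23 → y.1 (ptN k) = β := by
    intro k hk
    induction k with
    | zero => rfl
    | succ k ih =>
      have := hinv (ptN k)
      rw [hc, hs k (by omega), Nat.mod_eq_of_lt hk] at this
      rw [this, ih (by omega)]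
  have hval : ∀ p, p ≠ none → y.1 p = β := fun p hpn => by
    rcases hp p with e | ⟨k, hk, rfl⟩
    · exact absurd e hpn
    · exact hB k hk
  have split : ∀ f : GolayPt → ℤ, ∑ p, f p = f none + ∑ p ∈ (Finset.univ : Finset GolayPt).erase none, f p :=
    fun f => (Finset.add_sum_erase _ _ (Finset.mem_univ _)).symm
  have hq : sqNorm y.1 = y.1 none ^ 2 + 23 * β ^ 2 := by
    rw [sqNorm, split, Finset.sum_congr rfl (g := fun _ => β ^ 2) fun p hp => by rw [hval p (Finset.ne_of_mem_erase hp)],
      Finset.sum_const, hc23]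
    simp
  have hd : dotInt V3.1 y.1 = -3 * y.1 none + 23 * β := by
    rw [dotInt, split, Finset.sum_congr rfl (g := fun _ => β) fun p hp => by
        rw [V3_val, if_neg (Finset.ne_of_mem_erase hp), one_mul, hval p (Finset.ne_of_mem_erase hp)],
      Finset.sum_const, hc23, V3_val, if_pos rfl]
    simp
  rw [hn] at hq
  rw [hv] at hd
  have bβ : -1 ≤ β ∧ β ≤ 1 := by
    constructor <;> nlinarith [sq_nonneg (y.1 none), sq_nonneg (β + 2), sq_nonneg (β - 2)]
  have key : β = 0 ∧ y.1 none = 8 := by
    rcases (show β = -1 ∨ β = 0 ∨ β = 1 by omega) with hb | hb | hb <;> rw [hb] at hd hq ⊢ <;> omega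
  refine Subtype.ext (funext fun p => ?_)
  show y.1 p = (Pi.single none 8 : GolayPt → ℤ) p
  rcases eq_or_ne p none with rfl | hpn
  · rw [Pi.single_eq_same, key.2]
  · rw [Pi.single_eq_of_ne hpn, hval p hpn, key.1]

theorem exists_gen : ∃ c : fixGroup [2 ^ 23],
    (c : Equiv.Perm GolayPt) = permOf (Norm.powTab Norm.dataM23 1) ∧ orderOf c = 23 ∧
      Nat.card (Subgroup.normalizer (Subgroup.zpowers c : Set (fixGroup [2 ^ 23]))) = 23 * 11 := by
  have hfs : [2 ^ 23] = Norm.dataM23.fs := orbit_ok.2.2.2.symm
  obtain ⟨e23⟩ := Simple.equiv_K23 none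
  have hcard : Nat.card (fixGroup Norm.dataM23.fs) = Norm.dataM23.p * 443520 := by
    rw [← hfs, ← Nat.card_congr e23.toEquiv, Cfsg.Agent.S0376.result none]; rfl
  obtain ⟨c, hc, hoc, -, hnorm⟩ := Norm.sylow_of_data Norm.dataM23 Norm.dataM23_ok.1 Norm.dataM23_ok.2
    (by norm_num [Norm.dataM23]) (by norm_num [Norm.dataM23]) (by norm_num [Norm.dataM23]) 443520 hcard
    (by norm_num [Norm.dataM23])
  exact hfs ▸ ⟨c, hc, hoc, hnorm⟩

/-- Everything normalising the subgroup of order twenty-three is monomial. -/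
theorem normalizer_eq {c : fixGroup [2 ^ 23]} (hc : (c : Equiv.Perm GolayPt) = permOf (Norm.powTab Norm.dataM23 1)) :
    Subgroup.normalizer (Subgroup.zpowers (permHom c) : Set G) =
      (Subgroup.normalizer (Subgroup.zpowers c : Set (fixGroup [2 ^ 23]))).map permHom := by
  set C := Subgroup.zpowers (permHom c) with hC
  have hCmap : C = (Subgroup.zpowers c).map permHom := (MonoidHom.map_zpowers permHom c).symm
  ext g
  constructor
  · intro hg
    have hfix : ((g : Co0) • eight none) = eight none := by
      have hmem : g⁻¹ * permHom c * g ∈ C := by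
        have := (Subgroup.mem_normalizer_iff.1 ((Subgroup.normalizer (C : Set G)).inv_mem hg) (permHom c)).1
          (Subgroup.mem_zpowers _)
        simpa using this
      refine fixed_eight hc ?_ ?_ ?_
      · have h0 : (permHom c : Co0) • eight none = eight none := by
          refine Subtype.ext (funext fun p => ?_)
          rw [show (permHom c : Co0) = perm (Simple.mem_K23.1 c.2).1 from rfl, McL.perm_apply]
          show (Pi.single none 8 : GolayPt → ℤ) (c.1.symm p) = (Pi.single none 8 : GolayPt → ℤ) p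
          have : c.1.symm p = none ↔ p = none := by
            rw [Equiv.symm_apply_eq, (Simple.mem_K23.1 c.2).2]
          simp only [Pi.single_apply, this]
        have e2 : ((g⁻¹ * permHom c * g : G) : Co0) • eight none = eight none := by
          obtain ⟨n, hn⟩ := Subgroup.mem_zpowers_iff.1 hmem
          rw [← hn]
          exact zpow_mem (show permHom c ∈ stabilizer G (eight none) from h0) n
        simp only [Subgroup.coe_mul, Subgroup.coe_inv, mul_smul, inv_smul_eq_iff] at e2
        exact e2
      · exact (norm_smul (g : Co0) _).trans (cross_mem (eight_mem_cross none)).2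
      · rw [← show (g : Co0) • V3 = V3 from g.2, dot_smul, dotInt, Finset.sum_eq_single (none : GolayPt)
          (fun p _ hp => by rw [show (eight none).1 p = 0 from Pi.single_eq_of_ne hp _, mul_zero])
          (fun h => absurd (Finset.mem_univ _) h), V3_val, show (eight none).1 none = 8 by show (Pi.single none 8 : GolayPt → ℤ) none = 8; exact Pi.single_eq_same _ _]
        rfl
    obtain ⟨σ, rfl⟩ := mem_range_permHom hfix
    refine ⟨σ, Subgroup.mem_normalizer_iff.2 fun x => ?_, rfl⟩
    have := Subgroup.mem_normalizer_iff.1 hg (permHom x)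
    rw [← map_inv, ← map_mul, ← map_mul, hCmap, Subgroup.mem_map_iff_mem permHom_injective,
      Subgroup.mem_map_iff_mem permHom_injective] at this
    exact this
  · rintro ⟨σ, hσ, rfl⟩
    have := Subgroup.le_normalizer_map permHom ⟨σ, hσ, rfl⟩
    rwa [← hCmap] at this

/-! ### The action on partners -/

/-- A partner of the frame vector. -/
abbrev W : leechLattice := vStd

theorem dot_W : dotInt V3.1 W.1 = -8 := threeList_ok.2.2.1

theorem card_point_stab : Nat.card (stabilizer G W) = 898128000 := by
  rw [← (McL.isMcL norm_V3 HS.norm_X0 dot_W).2]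
  exact Nat.card_congr
    { toFun := fun x => ⟨x.1.1, x.1.2, x.2⟩
      invFun := fun x => ⟨⟨x.1, x.2.1⟩, x.2.2⟩
      left_inv := fun _ => rfl
      right_inv := fun _ => rfl }

theorem simple_point_stab : IsSimpleGroup (stabilizer G W) := by
  haveI := (McL.isMcL norm_V3 HS.norm_X0 dot_W).1
  let e : stabilizer G W ≃* ↥(stabilizer Co0 V3 ⊓ stabilizer Co0 W) :=
    { toFun := fun x => ⟨x.1.1, x.1.2, x.2⟩
      invFun := fun x => ⟨⟨x.1, x.2.1⟩, x.2.2⟩
      left_inv := fun _ => rfl
      right_inv := fun _ => rfl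
      map_mul' := fun _ _ => rfl }
  exact e.isSimpleGroup

theorem card_partners : (orbit G W).ncard = 47104 := by
  haveI := finite_G
  have h := (stabilizer G W).card_mul_index
  rw [index_stabilizer, card_point_stab, card_G] at h
  omega

/-- Only the frame vector's stabiliser elements fixing every partner are trivial. -/
theorem eq_one_of_fix {g : G} (h : ∀ x ∈ orbit G W, g • x = x) : g = 1 := by
  haveI := finite_G
  have hV : (g : Co0) • V3 = V3 := g.2
  have hW : (g : Co0) • W = W := h W (mem_orbit_self W)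
  obtain ⟨k, hk1, hk2, hk3⟩ : ∃ k : Co0, k • (V3 + W) = McL.U0 ∧ k • W = vStd ∧
      k • V3 = McL.U0 - vStd := by
    have hu : sqNorm (V3 + W).1 = 48 := by
      rw [AddSubgroup.coe_add, sqNorm_add, norm_V3, dot_W, HS.norm_X0]; rfl
    have hs : sqNorm W.1 = 32 ∧ sqNorm ((V3 + W).1 - W.1) = 32 := ⟨HS.norm_X0, by
      rw [AddSubgroup.coe_add, add_sub_cancel_right]; exact norm_V3⟩
    obtain ⟨k, k1, k2, -⟩ := McL.config hu hs
    exact ⟨k, k1, k2, by rw [← k1, ← k2, ← smul_sub', add_sub_cancel_right]⟩
  have hmem : k * (g : Co0) * k⁻¹ ∈ McL.K := by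
    refine ⟨?_, ?_⟩
    · show (k * (g : Co0) * k⁻¹) • McL.U0 = McL.U0
      rw [mul_smul, mul_smul, inv_smul_eq_iff.2 hk1.symm, smul_add', hV, hW, hk1]
    · show (k * (g : Co0) * k⁻¹) • vStd = vStd
      rw [mul_smul, mul_smul, inv_smul_eq_iff.2 hk2.symm, hW, hk2]
  have key : (⟨_, hmem⟩ : McL.K) = 1 := by
    refine McL.eq_one_of_fix fun x hx => ?_
    show (k * (g : Co0) * k⁻¹) • x = x
    rw [mul_smul, mul_smul, ← eq_inv_smul_iff]
    -- the partner matching the summand
    have hd : dotInt (McL.U0 - vStd).1 x.1 = 8 := by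
      have h16 : dotInt vStd.1 x.1 = 16 := by
        rw [show vStd.1 = vecOf repPair from rfl, dot_repPair]; have := hx.2.2; omega
      have : dotInt (McL.U0 - vStd).1 x.1 = dotInt McL.U0.1 x.1 - dotInt vStd.1 x.1 := by
        simp only [dotInt, AddSubgroup.coe_sub, Pi.sub_apply, sub_mul, Finset.sum_sub_distrib]
      rw [this, hx.2.1, h16]; rfl
    have hmem' : -(k⁻¹ • x) ∈ orbit G W := by
      have hd' : dotInt V3.1 (-(k⁻¹ • x)).1 = -8 := by
        rw [show V3 = k⁻¹ • (McL.U0 - vStd) by rw [← hk3, inv_smul_smul]]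
        simp only [AddSubgroup.coe_neg, dotInt, Pi.neg_apply, mul_neg, Finset.sum_neg_distrib]
        have := dot_smul k⁻¹ (McL.U0 - vStd) x
        simp only [dotInt] at this hd
        omega
      have hn : sqNorm (-(k⁻¹ • x)).1 = 32 := by
        rw [show sqNorm (-(k⁻¹ • x)).1 = sqNorm (k⁻¹ • x).1 by simp [sqNorm], norm_smul]; exact hx.1
      obtain ⟨m, m1, m2⟩ := transitive_dot8 norm_V3 HS.norm_X0 dot_W norm_V3 hn hd'
      exact ⟨⟨m, m1⟩, m2⟩
    have := h _ hmem'
    rw [show g • (-(k⁻¹ • x)) = (g : Co0) • (-(k⁻¹ • x)) from rfl, smul_neg'] at this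
    exact neg_injective this
  have e : k * (g : Co0) * k⁻¹ = 1 := congrArg Subtype.val key
  exact Subtype.ext (by simpa [mul_inv_eq_one] using e)

/-- The order of the general linear group of dimension eleven has no factor 125. -/
theorem gl_card : ¬ 125 ∣ ∏ i : Fin 11, (2 ^ 11 - 2 ^ (i : ℕ)) := by decide +kernel

/-- An elementary abelian group of order 2048 has no automorphism group of order divisible by 125. -/
theorem aut_card {N : Type*} [CommGroup N] [Finite N] (hN : Nat.card N = 2048) (h2 : ∀ n : N, n ^ 2 = 1) :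
    ¬ 125 ∣ Nat.card (MulAut N) := by
  letI : Module (ZMod 2) (Additive N) := AddCommGroup.zmodModule (fun x => h2 (Additive.toMul x))
  haveI : Module.Finite (ZMod 2) (Additive N) := Module.Finite.of_finite
  have hr : Module.finrank (ZMod 2) (Additive N) = 11 := by
    have := Module.natCard_eq_pow_finrank (K := ZMod 2) (V := Additive N)
    rw [Nat.card_zmod, show Nat.card (Additive N) = Nat.card N from rfl, hN, show (2048 : ℕ) = 2 ^ 11 by norm_num] at this
    exact (Nat.pow_right_injective le_rfl this).symm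
  let b := Module.finBasisOfFinrankEq (ZMod 2) (Additive N) hr
  let e1 : MulAut N ≃ (Additive N ≃ₗ[ZMod 2] Additive N) :=
    { toFun := fun f => { (MulEquiv.toAdditive f) with map_smul' := fun c x => ZMod.map_smul (MulEquiv.toAdditive f) c x }
      invFun := fun f => MulEquiv.toAdditive.symm f.toAddEquiv
      left_inv := fun f => rfl
      right_inv := fun f => rfl }
  have hc : Nat.card (MulAut N) = ∏ i : Fin 11, (2 ^ 11 - 2 ^ (i : ℕ)) := by
    rw [Nat.card_congr (e1.trans ((LinearMap.GeneralLinearGroup.generalLinearEquiv (ZMod 2) (Additive N)).symm.trans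
      (Matrix.GeneralLinearGroup.toLin' b).symm).toEquiv), Matrix.card_GL_field]
    simp
  rw [hc]
  exact gl_card

theorem twenty_three_dvd (N : Subgroup G) (hN : N.Normal) (hne : N ≠ ⊥) : 23 ∣ Nat.card N := by
  haveI := finite_G
  haveI : Fact (Nat.Prime 23) := ⟨by norm_num⟩
  obtain ⟨c, hc, hoc, hnorm⟩ := exists_gen
  have hocG : orderOf (permHom c) = 23 := (orderOf_injective permHom permHom_injective c).trans hoc
  set C := Subgroup.zpowers (permHom c) with hC
  have hCc : Nat.card C = 23 := by rw [hC, Nat.card_zpowers, hocG]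
  have hCidx : ¬ 23 ∣ C.index := by
    have h := C.card_mul_index
    rw [hCc, card_G] at h
    omega
  let P : Sylow 23 G := (IsPGroup.of_card (n := 1) (by rw [hCc, pow_one])).toSylow hCidx
  have hPC : (P : Subgroup G) = C := rfl
  haveI := Simple.simple_K23
  -- facts about normal subgroups of order prime to twenty-three
  have fpf : ∀ M : Subgroup G, M.Normal → ¬ 23 ∣ Nat.card M →
      ∀ n ∈ M, n * permHom c = permHom c * n → n = 1 := by
    intro M hM h23 n hn hcomm
    have hnn : n ∈ Subgroup.normalizer (C : Set G) := by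
      refine Subgroup.mem_normalizer_iff.2 fun x => ?_
      have hC' : ∀ z ∈ C, n * z * n⁻¹ = z := fun z hz => by
        obtain ⟨m, rfl⟩ := Subgroup.mem_zpowers_iff.1 hz
        rw [(Commute.zpow_right hcomm m).eq, mul_inv_cancel_right]
      refine ⟨fun hx => by rw [hC' x hx]; exact hx, fun hx => ?_⟩
      have h1 := hC' _ hx
      have : n * x * n⁻¹ = x := by
        simpa [mul_assoc] using congrArg (fun z => n⁻¹ * z * n) h1
      rwa [this] at hx
    rw [normalizer_eq hc] at hnn
    obtain ⟨σ, -, rfl⟩ := hnn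
    haveI := hM
    rcases (Simple.simple_K23).eq_bot_or_eq_top_of_normal (M.comap permHom) inferInstance with h | h
    · have : σ ∈ M.comap permHom := hn
      rw [h, Subgroup.mem_bot] at this
      rw [this, map_one]
    · exfalso
      refine h23 (hocG ▸ ?_)
      have hcm : permHom c ∈ M := by
        have : c ∈ M.comap permHom := h ▸ Subgroup.mem_top c
        exact this
      simpa using orderOf_dvd_natCard (⟨permHom c, hcm⟩ : M)
  have modone : ∀ M : Subgroup G, M.Normal → ¬ 23 ∣ Nat.card M → Nat.card M % 23 = 1 := by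
    intro M hM h23
    haveI := hM
    letI : MulAction C M := MulAction.compHom M ((MulAut.conjNormal (H := M)).comp C.subtype)
    have h := (IsPGroup.of_card (n := 1) (by rw [hCc, pow_one]) : IsPGroup 23 C).card_modEq_card_fixedPoints (α := M)
    have hfix : Nat.card (fixedPoints C M) = 1 := by
      rw [Nat.card_eq_one_iff_unique]
      refine ⟨⟨fun a b => Subtype.ext ?_⟩, ⟨⟨1, fun x => map_one (MulAut.conjNormal (H := M) (x : G))⟩⟩⟩
      have key : ∀ a : fixedPoints C M, (a : M) = 1 := fun a => Subtype.ext (by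
        refine fpf M hM h23 _ a.1.2 ?_
        have := congrArg (fun y : M => (y : G)) (a.2 ⟨permHom c, Subgroup.mem_zpowers _⟩)
        have e : (permHom c) * ((a : M) : G) * (permHom c)⁻¹ = ((a : M) : G) := by
          rw [← MulAut.conjNormal_apply]; exact this
        exact (mul_inv_eq_iff_eq_mul.1 e).symm)
      rw [key a, key b]
    rw [hfix] at h
    exact h
  haveI := simple_point_stab
  set L := stabilizer G W with hL
  have horb : ∀ M : Subgroup G, Nat.card (stabilizer M W) * (orbit M W).ncard = Nat.card M := fun M => by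
    rw [← index_stabilizer]; exact Subgroup.card_mul_index _
  have hdvdo : ∀ M : Subgroup G, M.Normal → ∀ m, Nat.card (stabilizer M W) = m →
      Nat.card M ∣ 42305421312000 ∧ Nat.card M = m * (orbit M W).ncard := fun M _ m hm =>
    ⟨card_G ▸ Subgroup.card_subgroup_dvd_card M, by rw [← horb M, hm]⟩
  have noL : ∀ M : Subgroup G, M.Normal → ¬ 23 ∣ Nat.card M → L ≤ M → False := by
    intro M hM h23 hle
    have hst : Nat.card (stabilizer M W) = 898128000 := by
      rw [← card_point_stab]
      exact Nat.card_congr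
        { toFun := fun x => ⟨x.1.1, x.2⟩
          invFun := fun x => ⟨⟨x.1, hle x.2⟩, x.2⟩
          left_inv := fun _ => rfl
          right_inv := fun _ => rfl }
    obtain ⟨hd, he⟩ := hdvdo M hM _ hst
    have h1 := modone M hM h23
    have h2 : (orbit M W).ncard ∣ 2 ^ 11 := by
      have h3 : (orbit M W).ncard ∣ 2 ^ 11 * 23 := by
        rw [he, show (42305421312000 : ℕ) = 898128000 * (2 ^ 11 * 23) by norm_num] at hd
        exact Nat.dvd_of_mul_dvd_mul_left (by norm_num) hd
      refine (Nat.Coprime.dvd_of_dvd_mul_right (Nat.Coprime.symm ((Nat.Prime.coprime_iff_not_dvd (by norm_num)).2 ?_)) h3)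
      intro h; exact h23 (he ▸ Dvd.dvd.mul_left h _)
    obtain ⟨a, ha, e⟩ := (Nat.dvd_prime_pow Nat.prime_two).1 h2
    rw [he, e] at h1
    interval_cases a <;> norm_num at h1
  by_contra h23
  have hstab : stabilizer N W = ⊥ := by
    rcases (show IsSimpleGroup L from inferInstance).eq_bot_or_eq_top_of_normal (N.subgroupOf L) Subgroup.normal_subgroupOf with h | h
    · refine (Subgroup.eq_bot_iff_forall _).2 fun n hn => ?_
      have : (⟨n.1, hn⟩ : L) ∈ N.subgroupOf L := n.2
      rw [h, Subgroup.mem_bot] at this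
      exact Subtype.ext (congrArg (fun z : L => (z : G)) this)
    · rw [Subgroup.subgroupOf_eq_top] at h
      exact absurd (noL N hN h23 h) not_false
  obtain ⟨hd, he⟩ := hdvdo N hN 1 (by rw [hstab, Subgroup.card_bot])
  rw [one_mul] at he
  have h1 := modone N hN h23
  have hNpow : ∀ M : Subgroup G, M ≤ N → M.Normal → M ≠ ⊥ → M = N := by
    intro M hMN hM hMne
    have hd23 : ¬ 23 ∣ Nat.card M := fun h => h23 (h.trans (Subgroup.card_dvd_of_le hMN))
    have h1' := modone M hM hd23
    have hMs : stabilizer M W = ⊥ := (Subgroup.eq_bot_iff_forall _).2 fun m hm => by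
      have : (⟨m.1, hMN m.2⟩ : N) ∈ stabilizer N W := hm
      rw [hstab, Subgroup.mem_bot] at this
      exact Subtype.ext (congrArg (fun z : N => (z : G)) this)
    have size : ∀ M : Subgroup G, M.Normal → ¬ 23 ∣ Nat.card M → Nat.card M % 23 = 1 → stabilizer M W = ⊥ →
        Nat.card M = 1 ∨ Nat.card M = 2048 := by
      intro M hM h23' h1' hs
      obtain ⟨hd', he'⟩ := hdvdo M hM 1 (by rw [hs, Subgroup.card_bot])
      rw [one_mul] at he'
      have h4 : (orbit M W).ncard ∣ 2 ^ 11 * 23 := by
        haveI := hM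
        have hML : M.relIndex L = Nat.card L := by
          rw [Subgroup.relIndex, show M.subgroupOf L = ⊥ from (Subgroup.eq_bot_iff_forall _).2 fun x hx => by
            have : (⟨x.1, hx⟩ : M) ∈ stabilizer M W := x.2
            rw [hs, Subgroup.mem_bot] at this
            exact Subtype.ext (congrArg (fun z : M => (z : G)) this), Subgroup.index_bot]
        have hmul := Subgroup.relIndex_mul_relIndex ⊥ M (M ⊔ L) bot_le le_sup_left
        rw [Subgroup.relIndex_sup_left, hML, Subgroup.relIndex_bot_left, Subgroup.relIndex_bot_left, card_point_stab] at hmul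
        have hd2 : Nat.card ↥(M ⊔ L) ∣ 898128000 * (2 ^ 11 * 23) :=
          (show (42305421312000 : ℕ) = 898128000 * (2 ^ 11 * 23) by norm_num) ▸ card_G ▸ Subgroup.card_subgroup_dvd_card _
        rw [← hmul, he', mul_comm ((orbit M W).ncard)] at hd2
        exact Nat.dvd_of_mul_dvd_mul_left (by norm_num) hd2
      have h5 : (orbit M W).ncard ∣ 2 ^ 11 :=
        Nat.Coprime.dvd_of_dvd_mul_right (Nat.Coprime.symm ((Nat.Prime.coprime_iff_not_dvd (by norm_num)).2
          (fun h => h23' (he' ▸ h)))) h4
      obtain ⟨a, ha, e⟩ := (Nat.dvd_prime_pow Nat.prime_two).1 h5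
      rw [he', e] at h1'
      rw [he', e]
      interval_cases a <;> first | omega | norm_num at h1' ⊢
    have hc1 := size M hM hd23 h1' hMs
    have hc2 := size N hN h23 h1 hstab
    refine Subgroup.eq_of_le_of_card_ge hMN ?_
    rcases hc1 with e | e
    · exact absurd ((Subgroup.card_eq_one).1 e) hMne
    · rcases hc2 with e' | e' <;> omega
  -- so the subgroup is elementary abelian of order 2048
  haveI := hN
  have hNne1 : Nat.card N ≠ 1 := fun e => hne ((Subgroup.card_eq_one).1 e)
  have h2048 : Nat.card N = 2048 := by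
    have hML : N.relIndex L = Nat.card L := by
      rw [Subgroup.relIndex, show N.subgroupOf L = ⊥ from (Subgroup.eq_bot_iff_forall _).2 fun x hx => by
        have : (⟨x.1, hx⟩ : N) ∈ stabilizer N W := x.2
        rw [hstab, Subgroup.mem_bot] at this
        exact Subtype.ext (congrArg (fun z : N => (z : G)) this), Subgroup.index_bot]
    have hmul := Subgroup.relIndex_mul_relIndex ⊥ N (N ⊔ L) bot_le le_sup_left
    rw [Subgroup.relIndex_sup_left, hML, Subgroup.relIndex_bot_left, Subgroup.relIndex_bot_left, card_point_stab] at hmul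
    have hd2 : Nat.card ↥(N ⊔ L) ∣ 898128000 * (2 ^ 11 * 23) :=
      (show (42305421312000 : ℕ) = 898128000 * (2 ^ 11 * 23) by norm_num) ▸ card_G ▸ Subgroup.card_subgroup_dvd_card _
    rw [← hmul, mul_comm (Nat.card N)] at hd2
    have h4 : Nat.card N ∣ 2 ^ 11 * 23 := Nat.dvd_of_mul_dvd_mul_left (by norm_num) hd2
    have h5 : Nat.card N ∣ 2 ^ 11 :=
      Nat.Coprime.dvd_of_dvd_mul_right (Nat.Coprime.symm ((Nat.Prime.coprime_iff_not_dvd (by norm_num)).2 h23)) h4
    obtain ⟨a, ha, e⟩ := (Nat.dvd_prime_pow Nat.prime_two).1 h5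
    rw [e] at h1 hNne1 ⊢
    interval_cases a <;> first | omega | norm_num at h1
  haveI : Fact (Nat.Prime 2) := ⟨Nat.prime_two⟩
  haveI : Nontrivial N := Finite.one_lt_card_iff_nontrivial.1 (by omega)
  have hp2 : IsPGroup 2 N := IsPGroup.of_card (n := 11) (by rw [h2048]; norm_num)
  have hcen : (Subgroup.center N).map N.subtype = N := by
    refine hNpow _ (Subgroup.map_subtype_le _) inferInstance ?_
    intro e
    haveI := hp2.center_nontrivial
    rw [Subgroup.map_eq_bot_iff_of_injective _ N.subtype_injective] at e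
    exact absurd e ((Subgroup.nontrivial_iff_ne_bot _).1 inferInstance)
  have hcomm : ∀ a b : N, a * b = b * a := fun a b => by
    have ha : (a : G) ∈ (Subgroup.center N).map N.subtype := hcen.symm ▸ a.2
    obtain ⟨a', ha', e⟩ := ha
    rw [show a = a' from Subtype.ext e.symm]
    exact (Subgroup.mem_center_iff.1 ha' b).symm
  letI : CommGroup N := { (inferInstance : Group N) with mul_comm := hcomm }
  let O2 : Subgroup G :=
    { carrier := {g | g ∈ N ∧ g ^ 2 = 1}
      one_mem' := ⟨one_mem N, one_pow 2⟩
      mul_mem' := fun {a b} ha hb => ⟨mul_mem ha.1 hb.1, by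
        rw [(show Commute a b from congrArg Subtype.val (hcomm ⟨a, ha.1⟩ ⟨b, hb.1⟩)).mul_pow, ha.2, hb.2, one_mul]⟩
      inv_mem' := fun {a} ha => ⟨inv_mem ha.1, by rw [inv_pow, ha.2, inv_one]⟩ }
  have hO2n : O2.Normal := ⟨fun n hn g => ⟨hN.conj_mem n hn.1 g, by rw [conj_pow, hn.2, mul_one, mul_inv_cancel]⟩⟩
  have hO2 : O2 = N := by
    refine hNpow O2 (fun g hg => hg.1) hO2n ?_
    intro e
    obtain ⟨z, hz⟩ := exists_prime_orderOf_dvd_card' (G := N) 2 (by rw [h2048]; norm_num)
    have : (z : G) ∈ O2 := ⟨z.2, by rw [← hz, ← Subgroup.orderOf_coe, pow_orderOf_eq_one]⟩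
    rw [e, Subgroup.mem_bot] at this
    rw [show z = 1 from Subtype.ext this, orderOf_one] at hz
    omega
  have hexp : ∀ n : N, n ^ 2 = 1 := fun n => Subtype.ext (by
    have : (n : G) ∈ O2 := hO2.symm ▸ n.2
    exact this.2)
  let φ : L →* MulAut N := (MulAut.conjNormal (H := N)).comp L.subtype
  rcases (show IsSimpleGroup L from inferInstance).eq_bot_or_eq_top_of_normal φ.ker inferInstance with h | h
  · refine aut_card h2048 hexp ?_
    have h125 : 125 ∣ Nat.card L := by rw [card_point_stab]; norm_num
    haveI : Finite (MulAut N) := Finite.of_injective (fun f => (f : N → N)) DFunLike.coe_injective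
    exact h125.trans (Subgroup.card_dvd_of_injective φ (φ.ker_eq_bot_iff.1 h))
  · let Z : Subgroup G := Subgroup.centralizer (N : Set G)
    have hle : L ≤ Z := fun g hg => by
      refine Subgroup.mem_centralizer_iff.2 fun n hn => ?_
      have h' : φ ⟨g, hg⟩ = 1 := by rw [← MonoidHom.mem_ker, h]; exact Subgroup.mem_top _
      have := congrArg (fun f : MulAut N => ((f ⟨n, hn⟩ : N) : G)) h'
      simp only [φ, MonoidHom.coe_comp, Function.comp_apply, Subgroup.coe_subtype, MulAut.conjNormal_apply,
        MulAut.one_apply] at this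
      exact (mul_inv_eq_iff_eq_mul.1 this).symm
    have hZn : Z.Normal := inferInstance
    by_cases hZ : 23 ∣ Nat.card Z
    · obtain ⟨z, hz⟩ := exists_prime_orderOf_dvd_card' (G := Z) 23 hZ
      have hzG : orderOf (z : G) = 23 := by rw [Subgroup.orderOf_coe]; exact hz
      obtain ⟨Q, hQ⟩ := IsPGroup.exists_le_sylow (p := 23) (P := Subgroup.zpowers (z : G))
        (IsPGroup.of_card (n := 1) (by rw [Nat.card_zpowers, hzG, pow_one]))
      obtain ⟨g, hg⟩ := MulAction.exists_smul_eq G Q P
      have hQc : Nat.card Q = 23 := Q.card_eq_multiplicity.trans (P.card_eq_multiplicity.symm.trans hCc)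
      have hQZ : (Q : Subgroup G) ≤ Z := by
        rw [← Subgroup.eq_of_le_of_card_ge hQ (by rw [Nat.card_zpowers, hzG]; exact hQc.le)]
        exact Subgroup.zpowers_le.2 z.2
      have hcZ : permHom c ∈ Z := by
        have hm : permHom c ∈ (P : Subgroup G) := Subgroup.mem_zpowers _
        rw [← hg, Sylow.coe_subgroup_smul, Subgroup.mem_pointwise_smul_iff_inv_smul_mem] at hm
        have h3 := hQZ hm
        rw [← map_inv, MulAut.smul_def, MulAut.conj_apply] at h3
        have h4 := hZn.conj_mem _ h3 g
        simpa [mul_assoc] using h4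
      obtain ⟨n, hn, hn1⟩ := (Subgroup.bot_or_exists_ne_one N).resolve_left hne
      exact hn1 (fpf N hN h23 n hn (Subgroup.mem_centralizer_iff.1 hcZ n hn))
    · exact noL Z hZn hZ hle

theorem isSimpleGroup_G : IsSimpleGroup G := by
  haveI := finite_G
  haveI : Fact (Nat.Prime 23) := ⟨by norm_num⟩
  obtain ⟨c, hc, hoc, hnorm⟩ := exists_gen
  have hocG : orderOf (permHom c) = 23 := (orderOf_injective permHom permHom_injective c).trans hoc
  set C := Subgroup.zpowers (permHom c) with hC
  have hCc : Nat.card C = 23 := by rw [hC, Nat.card_zpowers, hocG]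
  have hCidx : ¬ 23 ∣ C.index := by
    have h := C.card_mul_index
    rw [hCc, card_G] at h
    omega
  let P : Sylow 23 G := (IsPGroup.of_card (n := 1) (by rw [hCc, pow_one])).toSylow hCidx
  refine SimpleCrit.isSimpleGroup_of_prime_sylow (p := 23) (r := 11) (by norm_num) (by norm_num) P hCc ?_ twenty_three_dvd
    (by rw [card_G]; norm_num)
  show Nat.card (Subgroup.normalizer (C : Set G)) = _
  rw [hC, normalizer_eq hc, Subgroup.card_map_of_injective permHom_injective, hnorm]

theorem isCo2 {v : leechLattice} (hv : sqNorm v.1 = 32) : IsCo2 (stabilizer Co0 v) := by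
  obtain ⟨g, hg⟩ := transitive32 (v := V3) (w := v) norm_V3 hv
  haveI := isSimpleGroup_G
  let φ : G ≃* stabilizer Co0 v := MulAction.stabilizerEquivStabilizer hg.symm
  exact ⟨φ.symm.isSimpleGroup, (Nat.card_congr φ.symm.toEquiv).trans card_G⟩

end CfsgLib.Leech.Co2
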