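/-
Words in packed matrices inside the stabiliser of a vector of the second shortest norm class.
-/
import Cfsg.Agent.Leech.Co3MultVec
import Cfsg.Agent.Leech.Co3
import Cfsg.Agent.SchurCert.Gen

set_option autoImplicit false
set_option maxRecDepth 100000

namespace CfsgLib.Leech.Co3Mult

open Cfsg CfsgLib.Golay MulAction CfsgLib.SchurCert CfsgLib.Leech.McL
open CfsgLib.M23Coh (wordE)

/-- The fixed vector, packed. -/
def uPk : ℕ := pkV fun t => uList.getD t 0

theorem uPk_ok : wf uPk = true ∧ ∀ p, Val uPk p = vecOf uList p := by decide +kernel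

/-- A matrix pair gives an element fixing the vector. -/
def elOk (M N : List ℕ) : Bool := matOk M N && apOk M uPk && Nat.beq (ap M uPk) uPk

theorem exists_elt {M N : List ℕ} (h : elOk M N = true) :
    ∃ g : Co3.G, ∀ (v : leechLattice) (p : GolayPt), 8 * ((g : Co0) • v).1 p = lin M v.1 p := by
  simp only [elOk, Bool.and_eq_true, Nat.beq_eq] at h
  obtain ⟨⟨hm, hu⟩, he⟩ := h
  obtain ⟨g, hg⟩ := exists_aut hm
  have hM : wfM M = true := by
    simp only [matOk, Bool.and_eq_true] at hm
    exact hm.1.1.1.1.1.1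
  refine ⟨⟨g, mem_stabilizer_iff.2 (Subtype.ext (funext fun p => ?_))⟩, hg⟩
  have h1 := (ap_spec hM uPk_ok.1 hu).2 p
  rw [he, show Val uPk = U0.1 from funext uPk_ok.2, ← hg] at h1
  omega

open Classical in
/-- The element of a position in the lists. -/
noncomputable def gelC (Ms Ns : List (List ℕ)) (i : ℕ) : Co3.G :=
  if h : elOk (Ms.getD i []) (Ns.getD i []) = true then (exists_elt h).choose else 1

/-- Apply a word to a packed vector. -/
def run (Ms : List (List ℕ)) : List ℕ → ℕ → ℕ
  | [], x => x
  | i :: r, x => ap (Ms.getD i []) (run Ms r x)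

/-- The test for a word applied to a vector. -/
def runOk (Ms : List (List ℕ)) : List ℕ → ℕ → Bool
  | [], x => wf x
  | i :: r, x => runOk Ms r x && Nat.blt i Ms.length && apOk (Ms.getD i []) (run Ms r x)

/-- All matrices give elements. -/
def matsOk (Ms Ns : List (List ℕ)) : Bool :=
  (List.range Ms.length).all fun i => elOk (Ms.getD i []) (Ns.getD i [])

/-- Both sides of each relation agree on the vectors with one coordinate eight. -/
def relsChk (Ms : List (List ℕ)) (rels : List (List ℕ × List ℕ)) : Bool :=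
  rels.all fun r => (List.range 24).all fun j =>
    runOk Ms r.1 (e8 j) && runOk Ms r.2 (e8 j) && Nat.beq (run Ms r.1 (e8 j)) (run Ms r.2 (e8 j))

/-- The words move the vector to distinct images. -/
def nfChk (Ms : List (List ℕ)) (v : ℕ) (nf : List (List ℕ)) : Bool :=
  inLeech (Val v) && nf.all (fun w => runOk Ms w v) && increasing (nf.map fun w => run Ms w v)

theorem run_spec {Ms Ns : List (List ℕ)} (hm : matsOk Ms Ns = true) {x : ℕ} {v : leechLattice}
    (hv : v.1 = Val x) : ∀ {w : List ℕ}, runOk Ms w x = true →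
      wf (run Ms w x) = true ∧ ((wordE (gelC Ms Ns) w : Co3.G).1 • v).1 = Val (run Ms w x)
  | [], h => ⟨h, by
      show (((1 : Co3.G) : Co0) • v).1 = Val x
      rw [OneMemClass.coe_one, one_smul, hv]⟩
  | i :: r, h => by
    simp only [runOk, Bool.and_eq_true, Nat.blt_eq] at h
    obtain ⟨hw, hr⟩ := run_spec hm hv (w := r) h.1.1
    have he := List.all_eq_true.1 hm i (List.mem_range.2 h.1.2)
    have hM : wfM (Ms.getD i []) = true := by
      have := he
      simp only [elOk, matOk, Bool.and_eq_true] at this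
      exact this.1.1.1.1.1.1.1.1
    obtain ⟨hw', hval⟩ := ap_spec hM hw h.2
    refine ⟨hw', funext fun p => ?_⟩
    show ((((gelC Ms Ns i * wordE (gelC Ms Ns) r : Co3.G)) : Co0) • v).1 p = _
    rw [Subgroup.coe_mul, mul_smul]
    have hg : ∀ (u : leechLattice) (p : GolayPt),
        8 * ((gelC Ms Ns i : Co0) • u).1 p = lin (Ms.getD i []) u.1 p := by
      rw [gelC, dif_pos he]
      exact (exists_elt he).choose_spec
    have h1 := hg ((wordE (gelC Ms Ns) r : Co3.G).1 • v) p
    rw [hr, ← hval] at h1
    show _ = Val (ap (Ms.getD i []) (run Ms r x)) p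
    omega

/-- The conditions of a certificate in this model. -/
theorem ok_of {Ms Ns : List (List ℕ)} {c : GCert} {v : ℕ} (hp : c.p.Prime) (hm : matsOk Ms Ns = true)
    (hr : relsChk Ms c.rels = true) (hn : nfChk Ms v c.nf = true) (h2 : c.checkEqs = true)
    (h3 : c.checkSol = true) (h45 : (c.checkShape && c.checkNF) = true)
    (hs : ¬ c.p ∣ 495766656000 / c.p ^ c.n) : c.Ok (gelC Ms Ns) := by
  simp only [Bool.and_eq_true] at h45
  simp only [nfChk, Bool.and_eq_true] at hn
  obtain ⟨⟨hv, hok⟩, hinc⟩ := hn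
  refine ⟨hp, fun r hr' => ?_, h2, h3, h45.1, h45.2, ?_, by rwa [Co3.card_G]⟩
  · have hh := List.all_eq_true.1 hr r hr'
    refine Subtype.ext (ext_eights fun i => Subtype.ext ?_)
    have hj := List.all_eq_true.1 hh (idx i).val (List.mem_range.2 (idx i).isLt)
    simp only [Bool.and_eq_true, Nat.beq_eq] at hj
    have he : (eight i).1 = Val (e8 (idx i).val) := funext fun p => by
      rw [e8_val]; simp [eight, Pi.single_apply]
    rw [(run_spec hm he hj.1.1).2, (run_spec hm he hj.1.2).2, hj.2]
  · have hnd := increasing_nodup _ hinc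
    refine (List.nodup_map_iff_inj_on (List.Nodup.of_map _ hnd)).2 fun a ha b hb hab => ?_
    refine List.inj_on_of_nodup_map hnd ha hb ?_
    let V : leechLattice := ⟨Val v, inLeech_spec hv⟩
    have ea := run_spec (v := V) hm rfl (List.all_eq_true.1 hok a ha)
    have eb := run_spec (v := V) hm rfl (List.all_eq_true.1 hok b hb)
    exact eq_of_Val ea.1 eb.1 (by rw [← ea.2, ← eb.2, hab])

end CfsgLib.Leech.Co3Mult
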