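/-
Kernel checks of the certificate at 2 for the third Conway group.
-/
import Cfsg.Agent.Leech.Co3MultModel
import Cfsg.Agent.Leech.Co3MultData

set_option autoImplicit false
set_option maxRecDepth 100000
set_option Elab.async false

namespace CfsgLib.Leech.Co3Mult

open CfsgLib.SchurCert

theorem mats2_ok : matsOk p2Mats p2Inv = true := by decide +kernel
theorem rels2_ok : relsChk p2Mats cert2.rels = true := by decide +kernel
theorem nf2_ok : nfChk p2Mats p2Vec cert2.nf = true := by decide +kernel
theorem eqs2_ok : cert2.checkEqs = true := by decide +kernel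
theorem sol2_ok : cert2.checkSol = true := by decide +kernel
theorem shape2_ok : (cert2.checkShape && cert2.checkNF) = true := by decide +kernel
theorem phi2_ok : cert2.phiZero = true := by decide +kernel

theorem ok2 : cert2.Ok (gelC p2Mats p2Inv) :=
  ok_of (by norm_num [cert2]) mats2_ok rels2_ok nf2_ok eqs2_ok sol2_ok shape2_ok
    (by norm_num [cert2])

end CfsgLib.Leech.Co3Mult
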