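/-
Kernel checks of the certificate at 3 for the third Conway group.
-/
import Cfsg.Agent.Leech.Co3MultModel
import Cfsg.Agent.Leech.Co3MultData

set_option autoImplicit false
set_option maxRecDepth 100000
set_option Elab.async false

namespace CfsgLib.Leech.Co3Mult

open CfsgLib.SchurCert

theorem mats3_ok : matsOk p3Mats p3Inv = true := by decide +kernel
theorem rels3_ok : relsChk p3Mats cert3.rels = true := by decide +kernel
theorem nf3_ok : nfChk p3Mats p3Vec cert3.nf = true := by decide +kernel
theorem eqs3_ok : cert3.checkEqs = true := by decide +kernel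
theorem sol3_ok : cert3.checkSol = true := by decide +kernel
theorem shape3_ok : (cert3.checkShape && cert3.checkNF) = true := by decide +kernel
theorem phi3_ok : cert3.phiZero = true := by decide +kernel

theorem ok3 : cert3.Ok (gelC p3Mats p3Inv) :=
  ok_of (by norm_num [cert3]) mats3_ok rels3_ok nf3_ok eqs3_ok sol3_ok shape3_ok
    (by norm_num [cert3])

end CfsgLib.Leech.Co3Mult
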