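/-
Kernel checks of the certificate at 5 for the third Conway group.
-/
import Cfsg.Agent.Leech.Co3MultModel
import Cfsg.Agent.Leech.Co3MultData

set_option autoImplicit false
set_option maxRecDepth 100000
set_option Elab.async false

namespace CfsgLib.Leech.Co3Mult

open CfsgLib.SchurCert

theorem mats5_ok : matsOk p5Mats p5Inv = true := by decide +kernel
theorem rels5_ok : relsChk p5Mats cert5.rels = true := by decide +kernel
theorem nf5_ok : nfChk p5Mats p5Vec cert5.nf = true := by decide +kernel
theorem eqs5_ok : cert5.checkEqs = true := by decide +kernel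
theorem sol5_ok : cert5.checkSol = true := by decide +kernel
theorem shape5_ok : (cert5.checkShape && cert5.checkNF) = true := by decide +kernel
theorem phi5_ok : cert5.phiZero = true := by decide +kernel

theorem ok5 : cert5.Ok (gelC p5Mats p5Inv) :=
  ok_of (by norm_num [cert5]) mats5_ok rels5_ok nf5_ok eqs5_ok sol5_ok shape5_ok
    (by norm_num [cert5])

end CfsgLib.Leech.Co3Mult
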