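/-
The suborbits of sizes 112 and 162 on the points of the McLaughlin configuration.
-/
import Cfsg.Agent.Leech.McL
import Cfsg.Agent.Leech.McLThreeData

set_option autoImplicit false

namespace CfsgLib.Leech.McL

open Cfsg CfsgLib.Golay MulAction
open scoped Pointwise

/-- The third point of the reference triple. -/
abbrev j0 : GolayPt := ptN 1

theorem j0_ne : j0 ≠ none ∧ j0 ≠ some 0 := by decide +kernel

/-- Masks of the octads through the first point with prescribed behaviour at the next two. -/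
def triSel (b c : Bool) : List ℕ := (octSel b).filter fun m => m.testBit 1 == c

/-- The tree of a class. -/
def triTree : Bool → Bool → OrbTree
  | true, true => treeTT
  | true, false => treeTF
  | false, true => treeFT
  | false, false => treeFF

/-- The root of a class. -/
def triRoot : Bool → Bool → ℕ
  | true, true => treeTTRoot
  | true, false => treeTFRoot
  | false, true => treeFTRoot
  | false, false => treeFFRoot

theorem tri_ok : gensOk threeGens [2 ^ 23, 2 ^ 0, 2 ^ 1] = true ∧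
    (∀ b c, orbitOk threeGens (triTree b c) (triRoot b c) (triSel b c) = true ∧ triRoot b c < 2 ^ 24 ∧
      (triSel b c).Nodup) ∧
    (triSel true true).length = 21 ∧ (triSel true false).length = 56 ∧
    (triSel false true).length = 56 ∧ (triSel false false).length = 120 ∧
    toSet (2 ^ 1) = {j0} ∧ (idx j0).val = 1 ∧
    (Finset.univ \ ({none, some 0, j0} : Finset GolayPt)).card = 21 := by decide +kernel

theorem mem_triSel {b c : Bool} {o : Finset GolayPt} :
    mask o ∈ triSel b c ↔ o ∈ octads ∧ (none : GolayPt) ∈ o ∧ (b = true ↔ some 0 ∈ o) ∧ (c = true ↔ j0 ∈ o) := by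
  obtain ⟨-, -, -, -, -, -, -, i1, -⟩ := tri_ok
  have a : j0 ∈ o ↔ (mask o).testBit 1 = true := by
    conv_lhs => rw [← toSet_mask o, mem_toSet, i1]
  rw [triSel, List.mem_filter, mem_octSel, a]
  cases c <;> simp [and_assoc]

/-- The octads of a class. -/
def triSet (b c : Bool) : Set (Finset GolayPt) :=
  {o | o ∈ octads ∧ (none : GolayPt) ∈ o ∧ (b = true ↔ some 0 ∈ o) ∧ (c = true ↔ j0 ∈ o)}

theorem ncard_triSet (b c : Bool) : (triSet b c).ncard = (triSel b c).length := by
  rw [← List.toFinset_card_of_nodup (tri_ok.2.1 b c).2.2, ← Set.ncard_coe_finset]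
  refine Set.ncard_congr (fun o _ => mask o) (fun o ho => ?_) (fun o o' _ _ h => mask_injective h) fun m hm => ?_
  · rw [Finset.mem_coe, List.mem_toFinset]; exact mem_triSel.2 ho
  · rw [Finset.mem_coe, List.mem_toFinset] at hm
    have hlt : m < 2 ^ 24 := by
      have := List.all_eq_true.1 octSel_ok.2.2.2.2.1 m (List.mem_of_mem_filter (List.mem_of_mem_filter hm))
      simpa [Nat.blt_eq] using this
    exact ⟨toSet m, mem_triSel.1 (by rw [mask_toSet hlt]; exact hm), mask_toSet hlt⟩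

theorem trans_tri {b c : Bool} {o o' : Finset GolayPt} (ho : o ∈ triSet b c) (ho' : o' ∈ triSet b c) :
    ∃ σ, σ ∈ M24 ∧ σ none = none ∧ σ (some 0) = some 0 ∧ σ j0 = j0 ∧ σ • o = o' := by
  obtain ⟨hg, hall, -, -, -, -, t1, -, -⟩ := tri_ok
  obtain ⟨σ, hσ, e⟩ := exists_map_of_orbitOk (fixd := [2 ^ 23, 2 ^ 0, 2 ^ 1])
    (fun m hm => by simp at hm; rcases hm with rfl | rfl | rfl <;> norm_num)
    (hall b c).2.1 hg (hall b c).1 (mem_triSel.2 ho) (mem_triSel.2 ho')
  obtain ⟨hM, hf⟩ := mem_fixGroup.1 hσ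
  have f1 := hf (2 ^ 23) (by simp)
  have f2 := hf (2 ^ 0) (by simp)
  have f3 := hf (2 ^ 1) (by simp)
  rw [Simple.toSet_none, Finset.smul_finset_singleton, Finset.singleton_inj] at f1
  rw [Simple.toSet_zero, Finset.smul_finset_singleton, Finset.singleton_inj] at f2
  rw [t1, Finset.smul_finset_singleton, Finset.singleton_inj] at f3
  exact ⟨σ, hM, f1, f2, f3, e⟩

/-- The reference point. -/
noncomputable def X1 : leechLattice := (four_point j0_ne.1 j0_ne.2).choose

theorem X1_spec : IsPt X1 ∧ ∀ p, X1.1 p = fourVal j0 p := (four_point j0_ne.1 j0_ne.2).choose_spec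

/-- The stabiliser of the reference point. -/
noncomputable def KX : Subgroup Co0 := K ⊓ stabilizer Co0 X1

theorem perm_memX {σ : Equiv.Perm GolayPt} (hσ : σ ∈ M24) (hn : σ none = none) (h0 : σ (some 0) = some 0)
    (hj : σ j0 = j0) : perm hσ ∈ KX := by
  refine ⟨perm_mem hσ hn h0, Subtype.ext (funext fun p => ?_)⟩
  rw [perm_apply, X1_spec.2, X1_spec.2, fourVal, fourVal]
  have sn : σ.symm p = none ↔ p = none := by rw [Equiv.symm_apply_eq, hn]
  have sj : σ.symm p = j0 ↔ p = j0 := by rw [Equiv.symm_apply_eq, hj]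
  simp only [sn, sj]

/-! ### The five pieces -/

/-- Other double fours. -/
def pieceA : Set leechLattice :=
  {x | ∃ i ∈ ((Finset.univ \ {none, some 0, j0} : Finset GolayPt) : Set GolayPt), ∀ p, x.1 p = fourVal i p}

/-- Octad vectors. -/
def pieceC (c : Bool) : Set leechLattice := {x | ∃ o ∈ triSet true c, ∀ p, x.1 p = twoVal o p}

/-- Odd vectors. -/
def pieceD (c : Bool) : Set leechLattice := {x | ∃ o ∈ triSet false c, ∀ p, x.1 p = U0.1 p - twoVal o p}

theorem dot_X1 (y : GolayPt → ℤ) : dotInt X1.1 y = 4 * y none + 4 * y j0 := by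
  have h : ∀ p, X1.1 p * y p = (if p = none then 4 * y none else 0) + (if p = j0 then 4 * y j0 else 0) := fun p => by
    rw [X1_spec.2, fourVal]
    split_ifs with a b b
    · exact absurd (b.symm.trans a) j0_ne.1
    · subst a; ring
    · subst b; ring
    · ring
  rw [dotInt, Finset.sum_congr rfl fun p _ => h p, Finset.sum_add_distrib, Finset.sum_ite_eq', Finset.sum_ite_eq']
  simp

theorem dot_pieceA {x : leechLattice} (h : x ∈ pieceA) : IsPt x ∧ dotInt X1.1 x.1 = 16 := by
  obtain ⟨i, hi, e⟩ := h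
  simp only [Finset.mem_coe, Finset.mem_sdiff, Finset.mem_univ, true_and, Finset.mem_insert, Finset.mem_singleton,
    not_or] at hi
  obtain ⟨y, hy, ey⟩ := four_point hi.1 hi.2.1
  refine ⟨by rwa [show x = y from Subtype.ext (funext fun p => by rw [e, ey])], ?_⟩
  rw [dot_X1, e, e, fourVal, fourVal, if_pos rfl, if_neg (Ne.symm hi.1), if_neg j0_ne.1, if_neg (Ne.symm hi.2.2)]
  rfl

theorem dot_pieceC {c : Bool} {x : leechLattice} (h : x ∈ pieceC c) :
    IsPt x ∧ dotInt X1.1 x.1 = if c then 16 else 8 := by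
  obtain ⟨o, ⟨ho, hn, h0, hj⟩, e⟩ := h
  obtain ⟨y, hy, ey⟩ := two_point ho hn (h0.1 rfl)
  refine ⟨by rwa [show x = y from Subtype.ext (funext fun p => by rw [e, ey])], ?_⟩
  rw [dot_X1, e, e, twoVal, twoVal, if_pos hn]
  cases c
  · rw [if_neg (show j0 ∉ o from fun h => by simpa using hj.2 h)]; rfl
  · rw [if_pos (hj.1 rfl)]; rfl

theorem dot_pieceD {c : Bool} {x : leechLattice} (h : x ∈ pieceD c) :
    IsPt x ∧ dotInt X1.1 x.1 = if c then 8 else 16 := by
  obtain ⟨o, ⟨ho, hn, h0, hj⟩, e⟩ := h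
  obtain ⟨y, hy, ey⟩ := odd_point ho hn (fun h => by simpa using h0.2 h)
  refine ⟨by rwa [show x = y from Subtype.ext (funext fun p => by rw [e, ey])], ?_⟩
  rw [dot_X1, e, e, U0_val, U0_val, twoVal, twoVal, if_pos rfl, if_neg j0_ne.1, if_pos hn]
  cases c
  · rw [if_neg (show j0 ∉ o from fun h => by simpa using hj.2 h)]; rfl
  · rw [if_pos (hj.1 rfl)]; rfl

theorem split_point {y : leechLattice} (hy : IsPt y) :
    y = X1 ∨ y ∈ pieceA ∨ (∃ c, y ∈ pieceC c) ∨ ∃ c, y ∈ pieceD c := by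
  rcases classify hy with ⟨i, h1, h2, e⟩ | ⟨o, ho, h1, h2, e⟩ | ⟨o, ho, h1, h2, e⟩
  · rcases eq_or_ne i j0 with rfl | hi
    · exact Or.inl (Subtype.ext (funext fun p => by rw [e, X1_spec.2]))
    · exact Or.inr (Or.inl ⟨i, by simp [h1, h2, hi], e⟩)
  · exact Or.inr (Or.inr (Or.inl ⟨decide (j0 ∈ o), o, ⟨ho, h1, iff_of_true rfl h2, decide_eq_true_iff⟩, e⟩))
  · exact Or.inr (Or.inr (Or.inr ⟨decide (j0 ∈ o), o, ⟨ho, h1, iff_of_false (by decide) h2, decide_eq_true_iff⟩, e⟩))

theorem eight_eq : {y : leechLattice | IsPt y ∧ dotInt X1.1 y.1 = 8} = pieceC false ∪ pieceD true := by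
  ext y
  constructor
  · rintro ⟨hy, hd⟩
    rcases split_point hy with rfl | h | ⟨c, h⟩ | ⟨c, h⟩
    · rw [dot_self, X1_spec.1.1] at hd; omega
    · rw [(dot_pieceA h).2] at hd; omega
    · cases c
      · exact Or.inl h
      · rw [(dot_pieceC h).2] at hd; norm_num at hd
    · cases c
      · rw [(dot_pieceD h).2] at hd; norm_num at hd
      · exact Or.inr h
  · rintro (h | h)
    · exact dot_pieceC h
    · exact dot_pieceD h

theorem sixteen_eq : {y : leechLattice | IsPt y ∧ y ≠ X1 ∧ dotInt X1.1 y.1 = 16} =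
    pieceA ∪ pieceC true ∪ pieceD false := by
  ext y
  constructor
  · rintro ⟨hy, hne, hd⟩
    rcases split_point hy with h | h | ⟨c, h⟩ | ⟨c, h⟩
    · exact absurd h hne
    · exact Or.inl (Or.inl h)
    · cases c
      · rw [(dot_pieceC h).2] at hd; norm_num at hd
      · exact Or.inl (Or.inr h)
    · cases c
      · exact Or.inr h
      · rw [(dot_pieceD h).2] at hd; norm_num at hd
  · have hne : ∀ {z : leechLattice}, dotInt X1.1 z.1 = 16 → z ≠ X1 := fun hz e => by
      rw [e, dot_self, X1_spec.1.1] at hz; omega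
    rintro ((h | h) | h)
    · obtain ⟨a, b⟩ := dot_pieceA h; exact ⟨a, hne b, b⟩
    · obtain ⟨a, b⟩ := dot_pieceC h; exact ⟨a, hne b, b⟩
    · obtain ⟨a, b⟩ := dot_pieceD h; exact ⟨a, hne b, b⟩

theorem two_inj {o o' : Finset GolayPt} (h : twoVal o = twoVal o') : o = o' := Finset.ext fun p => by
  have := congrFun h p
  unfold twoVal at this
  constructor <;> intro hp <;> by_contra hq <;> simp [hp, hq] at this

theorem piece_sizes : pieceA.ncard = 21 ∧ (∀ c, (pieceC c).ncard = (triSel true c).length) ∧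
    ∀ c, (pieceD c).ncard = (triSel false c).length := by
  refine ⟨?_, fun c => ?_, fun c => ?_⟩
  · refine (ncard_family _ _ (fun j hj => ?_) (fun i hi i' hi' h => ?_)).trans
      (by rw [Set.ncard_coe_finset]; exact tri_ok.2.2.2.2.2.2.2.2)
    · simp only [Finset.mem_coe, Finset.mem_sdiff, Finset.mem_univ, true_and, Finset.mem_insert,
        Finset.mem_singleton, not_or] at hj
      exact four_point hj.1 hj.2.1
    · by_contra hne
      have := congrFun h i
      simp [fourVal, hne] at this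
  · exact (ncard_family _ _ (fun o ho => two_point ho.1 ho.2.1 (ho.2.2.1.1 rfl))
      fun o _ o' _ h => two_inj h).trans (ncard_triSet true c)
  · exact (ncard_family _ _ (fun o ho => odd_point ho.1 ho.2.1 (fun h => by simpa using ho.2.2.1.2 h))
      fun o _ o' _ h => two_inj (funext fun p => by have := congrFun h p; simpa using this)).trans
        (ncard_triSet false c)

theorem sub_finite {S : Set leechLattice} (h : ∀ y ∈ S, IsPt y) : S.Finite :=
  (Set.finite_of_ncard_ne_zero (s := {x : leechLattice | IsPt x}) (by rw [ncard_pts]; omega)).subset h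

theorem rank_sizes : {y : leechLattice | IsPt y ∧ dotInt X1.1 y.1 = 8}.ncard = 112 ∧
    {y : leechLattice | IsPt y ∧ y ≠ X1 ∧ dotInt X1.1 y.1 = 16}.ncard = 162 := by
  obtain ⟨sA, sC, sD⟩ := piece_sizes
  obtain ⟨-, -, l1, l2, l3, l4, -, -, -⟩ := tri_ok
  have fA := sub_finite (fun y hy => (dot_pieceA hy).1)
  have fC := fun c => sub_finite (fun y (hy : y ∈ pieceC c) => (dot_pieceC hy).1)
  have fD := fun c => sub_finite (fun y (hy : y ∈ pieceD c) => (dot_pieceD hy).1)
  have dCD : ∀ c c', Disjoint (pieceC c) (pieceD c') := fun c c' => Set.disjoint_left.2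
    fun x ⟨o, ⟨_, _, h0, _⟩, e⟩ ⟨o', ⟨_, _, h0', _⟩, e'⟩ => by
      have := (e (some 0)).symm.trans (e' (some 0))
      rw [twoVal, if_pos (h0.1 rfl), U0_val, if_neg (by simp), twoVal,
        if_neg (show (some 0 : GolayPt) ∉ o' from fun h => by simpa using h0'.2 h)] at this
      omega
  have dA : Disjoint pieceA (pieceC true) := Set.disjoint_left.2
    fun x ⟨i, _, e⟩ ⟨o, ⟨_, hn, _, _⟩, e'⟩ => by
      have := (e none).symm.trans (e' none)
      rw [fourVal, twoVal, if_pos rfl, if_pos hn] at this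
      split_ifs at this <;> omega
  have dAD : Disjoint pieceA (pieceD false) := Set.disjoint_left.2
    fun x ⟨i, _, e⟩ ⟨o, ⟨_, _, h0, _⟩, e'⟩ => by
      have := (e (some 0)).symm.trans (e' (some 0))
      rw [fourVal, U0_val, if_neg (show ¬ ((some 0 : GolayPt) = none) by simp),
        if_neg (show ¬ ((some 0 : GolayPt) = none) by simp), twoVal,
        if_neg (show (some 0 : GolayPt) ∉ o from fun h => by simpa using h0.2 h)] at this
      split_ifs at this <;> omega
  constructor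
  · rw [eight_eq, Set.ncard_union_eq (dCD false true) (fC false) (fD true), sC, sD, l2, l3]
  · rw [sixteen_eq, Set.ncard_union_eq (Set.disjoint_union_left.2 ⟨dAD, dCD true false⟩) (fA.union (fC true)) (fD false),
      Set.ncard_union_eq dA fA (fC true), sA, sC, sD, l1, l4]

theorem trans_pieceA {x x' : leechLattice} (h : x ∈ pieceA) (h' : x' ∈ pieceA) : ∃ g ∈ KX, g • x = x' := by
  obtain ⟨i, hi, e⟩ := h
  obtain ⟨i', hi', e'⟩ := h'
  simp only [Finset.mem_coe, Finset.mem_sdiff, Finset.mem_univ, true_and, Finset.mem_insert, Finset.mem_singleton,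
    not_or] at hi hi'
  obtain ⟨σ, hσ, t⟩ := exists_map_tuple (n := 4) (by omega) ![none, some 0, j0, i] ![none, some 0, j0, i']
    (inj4 (by simp) (Ne.symm j0_ne.1) (Ne.symm hi.1) (Ne.symm j0_ne.2) (Ne.symm hi.2.1) (Ne.symm hi.2.2))
    (inj4 (by simp) (Ne.symm j0_ne.1) (Ne.symm hi'.1) (Ne.symm j0_ne.2) (Ne.symm hi'.2.1) (Ne.symm hi'.2.2))
  refine ⟨_, perm_memX hσ (t 0) (t 1) (t 2), Subtype.ext (funext fun p => ?_)⟩
  rw [perm_apply, e, e', fourVal, fourVal]
  have sn : σ.symm p = none ↔ p = none := by rw [Equiv.symm_apply_eq, show σ none = none from t 0]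
  have si : σ.symm p = i ↔ p = i' := by rw [Equiv.symm_apply_eq, show σ i = i' from t 3]
  simp only [sn, si]

theorem trans_pieceC {c : Bool} {x x' : leechLattice} (h : x ∈ pieceC c) (h' : x' ∈ pieceC c) :
    ∃ g ∈ KX, g • x = x' := by
  obtain ⟨o, ho, e⟩ := h
  obtain ⟨o', ho', e'⟩ := h'
  obtain ⟨σ, hσ, tn, t0, tj, eo⟩ := trans_tri ho ho'
  refine ⟨_, perm_memX hσ tn t0 tj, Subtype.ext (funext fun p => ?_)⟩
  rw [perm_apply, e, e', perm_two, eo]

theorem trans_pieceD {c : Bool} {x x' : leechLattice} (h : x ∈ pieceD c) (h' : x' ∈ pieceD c) :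
    ∃ g ∈ KX, g • x = x' := by
  obtain ⟨o, ho, e⟩ := h
  obtain ⟨o', ho', e'⟩ := h'
  obtain ⟨σ, hσ, tn, t0, tj, eo⟩ := trans_tri ho ho'
  refine ⟨_, perm_memX hσ tn t0 tj, Subtype.ext (funext fun p => ?_)⟩
  have hU := congrArg (fun v : leechLattice => v.1 p) (perm_frame hσ tn t0).1
  simp only [perm_apply] at hU
  rw [perm_apply, e, e', hU, perm_two, eo]

/-- Linked by the stabiliser. -/
def Linked (P Q : Set leechLattice) : Prop := ∃ x ∈ P, ∃ y ∈ Q, ∃ g ∈ KX, g • x = y

theorem word_three : wordOk threeWord = true ∧ runWord threeWord uList = uList ∧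
    runWord threeWord repPair = repPair ∧
    runWord threeWord ((List.range 24).map fun i => if i = 23 ∨ i = 1 then 4 else 0) =
      ((List.range 24).map fun i => if i = 23 ∨ i = 1 then 4 else 0) ∧
    inLeech (vecOf ((List.range 24).map fun i => if i = 23 ∨ i = 1 then 4 else 0)) = true ∧
    (∀ p, vecOf ((List.range 24).map fun i => if i = 23 ∨ i = 1 then 4 else 0) p = fourVal j0 p) ∧
    inLeech (vecOf from01) = true ∧ runWord threeWord from01 = to01 ∧
    inLeech (vecOf from04) = true ∧ runWord threeWord from04 = to04 ∧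
    inLeech (vecOf from23) = true ∧ runWord threeWord from23 = to23 ∧
    (∀ p, vecOf from01 p = fourVal (ptN (((List.range 23).find? fun i => from01.getD i 0 == 4).getD 0)) p) ∧
    ((List.range 23).find? fun i => from01.getD i 0 == 4).getD 0 ∉ [0, 1, 23] ∧
    (∀ p, vecOf from04 p = fourVal (ptN (((List.range 23).find? fun i => from04.getD i 0 == 4).getD 0)) p) ∧
    ((List.range 23).find? fun i => from04.getD i 0 == 4).getD 0 ∉ [0, 1, 23] ∧
    suppMask from23 ∈ triSel true false ∧ (∀ p, vecOf from23 p = twoVal (toSet (suppMask from23)) p) ∧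
    suppMask to01 ∈ triSel true true ∧ (∀ p, vecOf to01 p = twoVal (toSet (suppMask to01)) p) ∧
    suppMask ((List.range 24).map fun i => uList.getD i 0 - to04.getD i 0) ∈ triSel false false ∧
    (∀ p, vecOf to04 p = vecOf uList p - twoVal (toSet (suppMask ((List.range 24).map fun i => uList.getD i 0 - to04.getD i 0))) p) ∧
    suppMask ((List.range 24).map fun i => uList.getD i 0 - to23.getD i 0) ∈ triSel false true ∧
    (∀ p, vecOf to23 p = vecOf uList p - twoVal (toSet (suppMask ((List.range 24).map fun i => uList.getD i 0 - to23.getD i 0))) p) := by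
  decide +kernel

theorem links : Linked pieceA (pieceC true) ∧ Linked pieceA (pieceD false) ∧
    Linked (pieceC false) (pieceD true) := by
  obtain ⟨hw, hu, hv, hx, mx, vx, m1, r1, m4, r4, m3, r3, a1, n1, a4, n4, s3, c3, t1, e1, t4, e4, t3, e3⟩ := word_three
  obtain ⟨E, hE⟩ := word_elt hw
  have hX : X1 = ⟨_, inLeech_spec mx⟩ := Subtype.ext (funext fun p => by rw [X1_spec.2]; exact (vx p).symm)
  have hK : E ∈ KX := ⟨⟨mem_stabilizer_iff.2 (Subtype.ext ((hE _ U0.2).trans (by rw [hu]; rfl))),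
    mem_stabilizer_iff.2 (Subtype.ext ((hE _ repPair_mem).trans (by rw [hv]; rfl)))⟩,
    mem_stabilizer_iff.2 (by rw [hX]; exact Subtype.ext ((hE _ _).trans (by rw [hx])))⟩
  have hlt : ∀ {b c m}, m ∈ triSel b c → toSet m ∈ triSet b c := fun {b c m} hm => by
    have : m < 2 ^ 24 := by
      have := List.all_eq_true.1 octSel_ok.2.2.2.2.1 m (List.mem_of_mem_filter (List.mem_of_mem_filter hm))
      simpa [Nat.blt_eq] using this
    exact mem_triSel.1 (by rw [mask_toSet this]; exact hm)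
  have hA : ∀ {i : ℕ}, i ∉ [0, 1, 23] → i < 24 → ptN i ∈ ((Finset.univ \ {none, some 0, j0} : Finset GolayPt) : Set GolayPt) := by
    intro i hn hi
    have h : ∀ i ∈ List.range 24, i ∉ [0, 1, 23] → ptN i ∈ (Finset.univ \ {none, some 0, j0} : Finset GolayPt) := by
      decide +kernel
    exact h i (List.mem_range.2 hi) hn
  have lt24 : ∀ l : List ℤ, ((List.range 23).find? fun i => l.getD i 0 == 4).getD 0 < 24 := fun l => by
    cases h : (List.range 23).find? fun i => l.getD i 0 == 4 with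
    | none => simp
    | some v => have := List.mem_range.1 (List.mem_of_find?_eq_some h); simp; omega
  refine ⟨⟨⟨_, inLeech_spec m1⟩, ⟨_, hA n1 (lt24 _), a1⟩, _, ⟨_, hlt t1, fun p => ?_⟩, E, hK, rfl⟩,
    ⟨⟨_, inLeech_spec m4⟩, ⟨_, hA n4 (lt24 _), a4⟩, _, ⟨_, hlt t4, fun p => ?_⟩, E, hK, rfl⟩,
    ⟨⟨_, inLeech_spec m3⟩, ⟨_, hlt s3, c3⟩, _, ⟨_, hlt t3, fun p => ?_⟩, E, hK, rfl⟩⟩
  · rw [hE, r1, e1]
  · rw [hE, r4, e4]; rfl
  · rw [hE, r3, e3]; rfl

theorem transitive_suborbit {y y' : leechLattice} (hy : IsPt y) (hy' : IsPt y') (hne : y ≠ X1) (hne' : y' ≠ X1)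
    (hd : dotInt X1.1 y.1 = dotInt X1.1 y'.1) : ∃ g ∈ KX, g • y = y' := by
  obtain ⟨⟨a1, ha1, c1, hc1, g1, hg1, e1⟩, ⟨a4, ha4, d4, hd4, g4, hg4, e4⟩,
    ⟨c3, hc3, d3, hd3, g3, hg3, e3⟩⟩ := links
  have comb : ∀ {p q r : leechLattice}, (∃ g ∈ KX, g • p = q) → (∃ g ∈ KX, g • q = r) → ∃ g ∈ KX, g • p = r := by
    rintro p q r ⟨g, hg, eg⟩ ⟨k, hk, ek⟩
    exact ⟨k * g, mul_mem hk hg, by rw [mul_smul, eg, ek]⟩
  have flip' : ∀ {p q : leechLattice}, (∃ g ∈ KX, g • p = q) → ∃ g ∈ KX, g • q = p := by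
    rintro p q ⟨g, hg, eg⟩
    exact ⟨g⁻¹, inv_mem hg, by rw [inv_smul_eq_iff, eg]⟩
  -- everything with inner product 16 is reached from one vector, everything with 8 from another
  have key : ∀ {z : leechLattice}, IsPt z → z ≠ X1 →
      (dotInt X1.1 z.1 = 16 ∧ ∃ g ∈ KX, g • a1 = z) ∨ (dotInt X1.1 z.1 = 8 ∧ ∃ g ∈ KX, g • c3 = z) := by
    intro z hz hzne
    rcases split_point hz with h | h | ⟨c, h⟩ | ⟨c, h⟩
    · exact absurd h hzne
    · exact Or.inl ⟨(dot_pieceA h).2, trans_pieceA ha1 h⟩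
    · cases c
      · exact Or.inr ⟨(dot_pieceC h).2, trans_pieceC hc3 h⟩
      · exact Or.inl ⟨(dot_pieceC h).2, comb ⟨g1, hg1, e1⟩ (trans_pieceC hc1 h)⟩
    · cases c
      · exact Or.inl ⟨(dot_pieceD h).2, comb (comb (trans_pieceA ha1 ha4) ⟨g4, hg4, e4⟩) (trans_pieceD hd4 h)⟩
      · exact Or.inr ⟨(dot_pieceD h).2, comb ⟨g3, hg3, e3⟩ (trans_pieceD hd3 h)⟩
  rcases key hy hne with ⟨d, h⟩ | ⟨d, h⟩ <;> rcases key hy' hne' with ⟨d', h'⟩ | ⟨d', h'⟩
  · exact comb (flip' h) h'
  · omega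
  · omega
  · exact comb (flip' h) h'

end CfsgLib.Leech.McL
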